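import Cfsg.Prelude.Def_Characters
import Cfsg.Agent.Lib.H04.Basic

set_option autoImplicit false
set_option linter.style.haveILetI false

namespace Cfsg.Agent.H04

open Cfsg

section
variable {G : Type*} [Group G]

theorem trace_fin_one_eq (f : (Fin 1 → ℂ) →ₗ[ℂ] (Fin 1 → ℂ)) :
    LinearMap.trace ℂ (Fin 1 → ℂ) f = (LinearMap.toMatrix' f) 0 0 := by
  rw [LinearMap.trace_eq_matrix_trace ℂ (Pi.basisFun ℂ (Fin 1)) f, LinearMap.toMatrix_eq_toMatrix',
    Matrix.trace_fin_one]

/-- Characters of degree one are multiplicative. -/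
theorem linChar_mul {lam : G → ℂ} (h : IsCharacter G lam) (h1 : lam 1 = 1) (a b : G) :
    lam (a * b) = lam a * lam b := by
  obtain ⟨n, ρ, rfl⟩ := h
  have hn : n = 1 := by
    have := Representation.char_one ρ
    rw [h1] at this
    simp only [Module.finrank_fintype_fun_eq_card, Fintype.card_fin] at this
    exact_mod_cast this.symm
  subst hn
  simp only [Representation.character, map_mul, Module.End.mul_eq_comp]
  rw [trace_fin_one_eq, trace_fin_one_eq, trace_fin_one_eq, LinearMap.toMatrix'_comp,
    Matrix.mul_apply, Fin.sum_univ_one]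

/-- Characters of degree one do not vanish. -/
theorem linChar_ne_zero {lam : G → ℂ} (h : IsCharacter G lam) (h1 : lam 1 = 1) (a : G) :
    lam a ≠ 0 := by
  intro h0
  have := linChar_mul h h1 a a⁻¹
  rw [mul_inv_cancel, h0, zero_mul, h1] at this
  exact one_ne_zero this

/-- A character is a class function. -/
theorem IsCharacter_conj {χ : G → ℂ} (h : IsCharacter G χ) (g x : G) :
    χ (x * g * x⁻¹) = χ g := by
  obtain ⟨n, ρ, rfl⟩ := h
  exact Representation.char_conj ρ g x

/-- An irreducible character is a character. -/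
theorem IsIrrCharacter.isCharacter {χ : G → ℂ} (h : IsIrrCharacter G χ) : IsCharacter G χ := by
  obtain ⟨n, ρ, -, rfl⟩ := h
  exact ⟨n, ρ, rfl⟩

end

end Cfsg.Agent.H04
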