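import Mathlib.GroupTheory.Transfer
import Mathlib.GroupTheory.Sylow
import Mathlib.Data.ZMod.Basic
import Mathlib.GroupTheory.SpecificGroups.Cyclic

/-!
# Homocyclic Sylow `2`-subgroups of rank two
-/

set_option autoImplicit false
set_option linter.style.haveILetI false
set_option linter.unusedSectionVars false
set_option linter.unusedSimpArgs false
set_option linter.unusedVariables false

namespace Cfsg.Agent.H04

universe u

/-- Permutations of order three on three points. -/
theorem perm3_fin : ∀ σ : Equiv.Perm (Fin 3), σ ^ 3 = 1 → σ ≠ 1 → ∀ x y : Fin 3,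
    ∃ k : Fin 3, (σ ^ (k : ℕ)) x = y := by
  decide

theorem perm3 {X : Type*} (hX : Nat.card X = 3) (σ : Equiv.Perm X) (h3 : σ ^ 3 = 1) (h1 : σ ≠ 1)
    (x y : X) : ∃ k : ℕ, (σ ^ k) x = y := by
  classical
  haveI : Finite X := Nat.finite_of_card_ne_zero (by omega)
  haveI := Fintype.ofFinite X
  have hc : Fintype.card X = 3 := by rw [← Nat.card_eq_fintype_card, hX]
  let f : X ≃ Fin 3 := Fintype.equivFinOfCardEq hc
  let φ := Equiv.permCongrHom f
  have h3' : (φ σ) ^ 3 = 1 := by rw [← map_pow, h3, map_one]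
  have h1' : φ σ ≠ 1 := fun h => h1 (by
    apply φ.injective
    rw [h, map_one])
  obtain ⟨k, hk⟩ := perm3_fin (φ σ) h3' h1' (f x) (f y)
  refine ⟨k, ?_⟩
  rw [← map_pow] at hk
  apply f.injective
  rw [← hk]
  simp [φ, Equiv.permCongrHom, Equiv.permCongr]

/-- Two-torsion in `ZMod (2 ^ m)`. -/
theorem zmod_two_torsion (l : ℕ) :
    ∃ t : ZMod (2 ^ (l + 1)), t ≠ 0 ∧ t + t = 0 ∧ ∀ a : ZMod (2 ^ (l + 1)), a + a = 0 → a = 0 ∨ a = t := by
  have hpos : 0 < 2 ^ (l + 1) := by positivity
  haveI : NeZero (2 ^ (l + 1)) := ⟨hpos.ne'⟩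
  refine ⟨((2 ^ l : ℕ) : ZMod (2 ^ (l + 1))), ?_, ?_, ?_⟩
  · intro h
    rw [ZMod.natCast_eq_zero_iff] at h
    have h2 := Nat.le_of_dvd (by positivity) h
    rw [pow_succ] at h2
    have : 0 < 2 ^ l := by positivity
    omega
  · rw [← Nat.cast_add, ZMod.natCast_eq_zero_iff, pow_succ]
    exact ⟨1, by ring⟩
  · intro a ha
    have hval : ((a.val : ℕ) : ZMod (2 ^ (l + 1))) = a := ZMod.natCast_zmod_val a
    have hlt : a.val < 2 ^ (l + 1) := ZMod.val_lt a
    rw [← hval, ← Nat.cast_add, ZMod.natCast_eq_zero_iff] at ha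
    obtain ⟨c, hc⟩ := ha
    have h2 : a.val = 2 ^ l * c := by
      have hc' : a.val + a.val = 2 ^ l * 2 * c := by rw [← pow_succ]; exact hc
      have : 2 * a.val = 2 * (2 ^ l * c) := by rw [two_mul, hc']; ring
      exact Nat.eq_of_mul_eq_mul_left (by norm_num) this
    have hc2 : c < 2 := by
      by_contra h
      push Not at h
      have h3 : 2 ^ l * 2 ≤ 2 ^ l * c := Nat.mul_le_mul_left _ h
      have hlt' : a.val < 2 ^ l * 2 := by rw [← pow_succ]; exact hlt
      omega
    rcases (by omega : c = 0 ∨ c = 1) with rfl | rfl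
    · left
      rw [← hval, h2]
      simp
    · right
      rw [← hval, h2]
      simp

theorem card_involutions (m : ℕ) (hm : 1 ≤ m) :
    Nat.card {w : Multiplicative (ZMod (2 ^ m) × ZMod (2 ^ m)) // w ^ 2 = 1 ∧ w ≠ 1} = 3 := by
  classical
  obtain ⟨l, rfl⟩ : ∃ l, m = l + 1 := ⟨m - 1, by omega⟩
  obtain ⟨t, ht0, ht2, htu⟩ := zmod_two_torsion l
  let A := Multiplicative (ZMod (2 ^ (l + 1)) × ZMod (2 ^ (l + 1)))
  let S : Finset A := {Multiplicative.ofAdd (0, t), Multiplicative.ofAdd (t, 0), Multiplicative.ofAdd (t, t)}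
  have hsq : ∀ a b : ZMod (2 ^ (l + 1)),
      ((Multiplicative.ofAdd (a, b) : A) ^ 2 = 1 ↔ a + a = 0 ∧ b + b = 0) := by
    intro a b
    rw [← ofAdd_nsmul, two_nsmul]
    constructor
    · intro h
      have h1 : (a, b) + (a, b) = (0 : ZMod (2 ^ (l + 1)) × ZMod (2 ^ (l + 1))) := h
      exact ⟨congrArg Prod.fst h1, congrArg Prod.snd h1⟩
    · rintro ⟨h1, h2⟩
      show (a, b) + (a, b) = (0 : ZMod (2 ^ (l + 1)) × ZMod (2 ^ (l + 1)))
      exact Prod.ext h1 h2
  have hone : ∀ a b : ZMod (2 ^ (l + 1)),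
      ((Multiplicative.ofAdd (a, b) : A) = 1 ↔ a = 0 ∧ b = 0) := by
    intro a b
    constructor
    · intro h
      have h1 : (a, b) = (0 : ZMod (2 ^ (l + 1)) × ZMod (2 ^ (l + 1))) := h
      exact ⟨congrArg Prod.fst h1, congrArg Prod.snd h1⟩
    · rintro ⟨rfl, rfl⟩
      rfl
  have hiff : ∀ w : A, w ^ 2 = 1 ∧ w ≠ 1 ↔ w ∈ S := by
    intro w
    obtain ⟨⟨a, b⟩, rfl⟩ := Multiplicative.ofAdd.surjective w
    rw [hsq]
    simp only [Ne, hone, S, Finset.mem_insert, Finset.mem_singleton, EmbeddingLike.apply_eq_iff_eq, Prod.mk.injEq]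
    constructor
    · rintro ⟨⟨h1, h2⟩, h3⟩
      rcases htu a h1 with rfl | rfl <;> rcases htu b h2 with rfl | rfl
      · exact absurd ⟨rfl, rfl⟩ h3
      · left; exact ⟨rfl, rfl⟩
      · right; left; exact ⟨rfl, rfl⟩
      · right; right; exact ⟨rfl, rfl⟩
    · rintro (⟨rfl, rfl⟩ | ⟨rfl, rfl⟩ | ⟨rfl, rfl⟩)
      · exact ⟨⟨by simp, ht2⟩, fun h => ht0 h.2⟩
      · exact ⟨⟨ht2, by simp⟩, fun h => ht0 h.1⟩
      · exact ⟨⟨ht2, ht2⟩, fun h => ht0 h.1⟩
  have hcardS : S.card = 3 := by
    rw [Finset.card_insert_of_notMem, Finset.card_insert_of_notMem, Finset.card_singleton]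
    · simp [ht0, ht0.symm]
    · simp [ht0, ht0.symm]
  have e1 : {w : A // w ^ 2 = 1 ∧ w ≠ 1} ≃ {w : A // w ∈ S} := Equiv.subtypeEquivRight hiff
  rw [Nat.card_congr e1, Nat.card_eq_fintype_card, Fintype.card_coe, hcardS]

section Main

variable {G : Type*} [Group G] [Finite G] (P : Sylow 2 G)

/-- The involutions of a subgroup. -/
def InvOf (P : Subgroup G) : Type _ := {x : G // x ∈ P ∧ x ^ 2 = 1 ∧ x ≠ 1}

theorem card_invOf (P : Subgroup G) (m : ℕ) (hm : 1 ≤ m)
    (e : P ≃* Multiplicative (ZMod (2 ^ m) × ZMod (2 ^ m))) : Nat.card (InvOf P) = 3 := by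
  rw [← card_involutions m hm]
  refine Nat.card_congr
    { toFun := fun x => ⟨e ⟨x.1, x.2.1⟩, ?_, ?_⟩
      invFun := fun w => ⟨(e.symm w.1 : G), (e.symm w.1).2, ?_, ?_⟩
      left_inv := fun x => ?_
      right_inv := fun w => ?_ }
  · rw [← map_pow]
    have : (⟨x.1, x.2.1⟩ : P) ^ 2 = 1 := Subtype.ext x.2.2.1
    rw [this, map_one]
  · intro h
    have h1 := (map_eq_one_iff e e.injective).1 h
    exact x.2.2.2 (congrArg Subtype.val h1)
  · have h1 : (e.symm w.1) ^ 2 = 1 := by rw [← map_pow, w.2.1, map_one]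
    exact congrArg Subtype.val h1
  · intro h
    apply w.2.2
    have h1 : e.symm w.1 = 1 := Subtype.ext h
    exact (map_eq_one_iff e.symm e.symm.injective).1 h1
  · apply Subtype.ext
    simp
  · apply Subtype.ext
    simp

/-- The conjugation action of the normalizer on involutions. -/
def invConj (P : Subgroup G) (n : Subgroup.normalizer (P : Set G)) (x : InvOf P) : InvOf P :=
  ⟨(n : G) * x.1 * (n : G)⁻¹, (Subgroup.mem_normalizer_iff.1 n.2 x.1).1 x.2.1,
    by rw [conj_pow, x.2.2.1]; simp,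
    by
      intro h
      apply x.2.2.2
      have : (n : G) * x.1 = (n : G) := by
        have h2 := congrArg (· * (n : G)) h
        simpa using h2
      simpa using this⟩

theorem invConj_val (P : Subgroup G) (n : Subgroup.normalizer (P : Set G)) (x : InvOf P) :
    (invConj P n x).1 = (n : G) * x.1 * (n : G)⁻¹ := rfl

/-- The permutation representation on involutions. -/
def invHom (P : Subgroup G) : Subgroup.normalizer (P : Set G) →* Equiv.Perm (InvOf P) where
  toFun n :=
    { toFun := invConj P n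
      invFun := invConj P n⁻¹
      left_inv := fun x => Subtype.ext (by simp [invConj_val, mul_assoc])
      right_inv := fun x => Subtype.ext (by simp [invConj_val, mul_assoc]) }
  map_one' := Equiv.ext fun x => Subtype.ext (by
    show (((1 : Subgroup.normalizer (P : Set G)) : G)) * x.1 * (((1 : Subgroup.normalizer (P : Set G)) : G))⁻¹ = x.1
    simp)
  map_mul' := fun a b => Equiv.ext fun x => Subtype.ext (by
    show ((a * b : Subgroup.normalizer (P : Set G)) : G) * x.1 * ((a * b : Subgroup.normalizer (P : Set G)) : G)⁻¹ =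
      (a : G) * ((b : G) * x.1 * (b : G)⁻¹) * (a : G)⁻¹
    simp [mul_assoc])

theorem invHom_val (P : Subgroup G) (n : Subgroup.normalizer (P : Set G)) (x : InvOf P) :
    ((invHom P n) x).1 = (n : G) * x.1 * (n : G)⁻¹ := rfl

variable {P}

/-- An element fixing the involutions with an odd power centralizing `P` centralizes `P`. -/
theorem centralizes_of_fix (hab : ∀ a ∈ (P : Subgroup G), ∀ b ∈ (P : Subgroup G), a * b = b * a)
    {n : G} (hn : n ∈ Subgroup.normalizer ((P : Subgroup G) : Set G))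
    (hfix : ∀ x ∈ (P : Subgroup G), x ^ 2 = 1 → n * x * n⁻¹ = x)
    {o : ℕ} (ho : Odd o) (hc : n ^ o ∈ Subgroup.centralizer ((P : Subgroup G) : Set G)) (r : ℕ) :
    ∀ y ∈ (P : Subgroup G), y ^ (2 ^ r) = 1 → n * y * n⁻¹ = y := by
  induction r with
  | zero =>
    intro y _ hy
    have : y = 1 := by simpa using hy
    rw [this]; simp
  | succ r ih =>
    intro y hy hyr
    have hy2 : n * y ^ 2 * n⁻¹ = y ^ 2 := by
      apply ih (y ^ 2) (Subgroup.pow_mem _ hy 2)
      rw [← pow_mul, ← pow_succ']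
      exact hyr
    set y' := n * y * n⁻¹ with hy'
    have hy'P : y' ∈ (P : Subgroup G) := (Subgroup.mem_normalizer_iff.1 hn y).1 hy
    set t := y⁻¹ * y' with ht
    have htP : t ∈ (P : Subgroup G) := Subgroup.mul_mem _ (Subgroup.inv_mem _ hy) hy'P
    have hcy : y⁻¹ * y' = y' * y⁻¹ := hab _ (Subgroup.inv_mem _ hy) _ hy'P
    have ht2 : t ^ 2 = 1 := by
      have h1 : y' ^ 2 = y ^ 2 := by
        rw [hy', conj_pow, hy2]
      have h2 : Commute y⁻¹ y' := hcy
      rw [ht, h2.mul_pow, h1]
      simp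
    have hnt : n * t * n⁻¹ = t := hfix t htP ht2
    have hyt : y' = y * t := by rw [ht]; group
    have hk : ∀ k : ℕ, n ^ k * y * (n ^ k)⁻¹ = y * t ^ k := by
      intro k
      induction k with
      | zero => simp
      | succ k ihk =>
        have htk : n * t ^ k * n⁻¹ = t ^ k := by rw [← conj_pow, hnt]
        calc n ^ (k + 1) * y * (n ^ (k + 1))⁻¹ = n * (n ^ k * y * (n ^ k)⁻¹) * n⁻¹ := by
              rw [pow_succ']; group
          _ = n * (y * t ^ k) * n⁻¹ := by rw [ihk]
          _ = (n * y * n⁻¹) * (n * t ^ k * n⁻¹) := by group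
          _ = y * t * t ^ k := by rw [← hy', hyt, htk]
          _ = y * t ^ (k + 1) := by rw [pow_succ']; group
    have h1 := hk o
    have h2 : n ^ o * y = y * n ^ o := (Subgroup.mem_centralizer_iff.1 hc y hy).symm
    have h3 : n ^ o * y * (n ^ o)⁻¹ = y := by rw [h2]; group
    rw [h3] at h1
    have h4 : t ^ o = 1 := by
      have := mul_left_cancel (a := y) (b := 1) (c := t ^ o) (by rw [mul_one]; exact h1)
      exact this.symm
    have h5 : t = 1 := by
      obtain ⟨w, hw⟩ := ho
      rw [hw, pow_succ, pow_mul, ht2, one_pow, one_mul] at h4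
      exact h4
    rw [hyt, h5, mul_one]

theorem not_two_dvd_relIndex (hab : ∀ a ∈ (P : Subgroup G), ∀ b ∈ (P : Subgroup G), a * b = b * a) :
    ¬ 2 ∣ (Subgroup.centralizer ((P : Subgroup G) : Set G)).relIndex
      (Subgroup.normalizer ((P : Subgroup G) : Set G)) := by
  intro h
  have hPC : (P : Subgroup G) ≤ Subgroup.centralizer ((P : Subgroup G) : Set G) := by
    intro a ha
    rw [Subgroup.mem_centralizer_iff]
    intro b hb
    exact hab b hb a ha
  -- `P` lies in the centralizer
  have h1 : (Subgroup.centralizer ((P : Subgroup G) : Set G)).relIndex (Subgroup.normalizer ((P : Subgroup G) : Set G)) ∣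
      (P : Subgroup G).relIndex (Subgroup.normalizer ((P : Subgroup G) : Set G)) :=
    Subgroup.relIndex_dvd_of_le_left _ hPC
  have h2 : (P : Subgroup G).relIndex (Subgroup.normalizer ((P : Subgroup G) : Set G)) ∣ (P : Subgroup G).index :=
    Subgroup.relIndex_dvd_index_of_le Subgroup.le_normalizer
  exact P.not_dvd_index ((h.trans h1).trans h2)

theorem centralizer_le_normalizer' (P : Subgroup G) :
    Subgroup.centralizer (P : Set G) ≤ Subgroup.normalizer (P : Set G) := by
  intro c hc
  refine Subgroup.mem_normalizer_iff.2 fun h => ?_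
  constructor
  · intro hh
    have : c * h = h * c := (Subgroup.mem_centralizer_iff.1 hc h hh).symm
    rw [this]
    simpa using hh
  · intro hh
    have h1 := (Subgroup.mem_centralizer_iff.1 hc _ hh).symm
    have h2 : c * h * c⁻¹ * c = c * h := by group
    rw [h2] at h1
    have h3 := mul_left_cancel h1
    rw [← h3]
    exact hh

theorem centralizer_subgroupOf_normal (P : Subgroup G) :
    ((Subgroup.centralizer (P : Set G)).subgroupOf (Subgroup.normalizer (P : Set G))).Normal := by
  constructor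
  intro c hc n
  rw [Subgroup.mem_subgroupOf] at hc ⊢
  rw [Subgroup.mem_centralizer_iff]
  intro h hh
  have hn := n.2
  have h1 : (n : G)⁻¹ * h * (n : G) ∈ P := by
    have := (Subgroup.mem_normalizer_iff.1 ((Subgroup.normalizer (P : Set G)).inv_mem hn) h).1 hh
    simpa using this
  have h2 := Subgroup.mem_centralizer_iff.1 hc _ h1
  simp only [Subgroup.coe_mul, InvMemClass.coe_inv]
  calc h * ((n : G) * (c : G) * (n : G)⁻¹) = (n : G) * (((n : G)⁻¹ * h * (n : G)) * (c : G)) * (n : G)⁻¹ := by group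
    _ = (n : G) * ((c : G) * ((n : G)⁻¹ * h * (n : G))) * (n : G)⁻¹ := by rw [h2]
    _ = ((n : G) * (c : G) * (n : G)⁻¹) * h := by group

/-- The kernel of the representation on involutions. -/
theorem mem_ker_invHom (hab : ∀ a ∈ (P : Subgroup G), ∀ b ∈ (P : Subgroup G), a * b = b * a)
    (n : Subgroup.normalizer ((P : Subgroup G) : Set G)) :
    invHom (P : Subgroup G) n = 1 ↔ (n : G) ∈ Subgroup.centralizer ((P : Subgroup G) : Set G) := by
  classical
  constructor
  · intro h1
    have hfix : ∀ x ∈ (P : Subgroup G), x ^ 2 = 1 → (n : G) * x * (n : G)⁻¹ = x := by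
      intro x hx hx2
      by_cases hx1 : x = 1
      · rw [hx1]; simp
      · have h2 := congrArg (fun σ : Equiv.Perm (InvOf (P : Subgroup G)) => (σ ⟨x, hx, hx2, hx1⟩).1) h1
        exact h2
    haveI := centralizer_subgroupOf_normal (P : Subgroup G)
    have hodd : Odd ((Subgroup.centralizer ((P : Subgroup G) : Set G)).relIndex
        (Subgroup.normalizer ((P : Subgroup G) : Set G))) :=
      Nat.odd_iff.2 (by
        have := not_two_dvd_relIndex (P := P) hab
        omega)
    have hpow : (n : G) ^ ((Subgroup.centralizer ((P : Subgroup G) : Set G)).relIndex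
        (Subgroup.normalizer ((P : Subgroup G) : Set G))) ∈ Subgroup.centralizer ((P : Subgroup G) : Set G) := by
      have := Subgroup.pow_index_mem ((Subgroup.centralizer ((P : Subgroup G) : Set G)).subgroupOf
        (Subgroup.normalizer ((P : Subgroup G) : Set G))) n
      rw [Subgroup.mem_subgroupOf] at this
      rw [Subgroup.relIndex]
      simpa using this
    rw [Subgroup.mem_centralizer_iff]
    intro y hy
    obtain ⟨r, hr⟩ := P.isPGroup' ⟨y, hy⟩
    have hr' : y ^ (2 ^ r) = 1 := congrArg Subtype.val hr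
    have h3 := centralizes_of_fix hab n.2 hfix hodd hpow r y hy hr'
    calc y * (n : G) = ((n : G) * y * (n : G)⁻¹) * (n : G) := by rw [h3]
      _ = (n : G) * y := by group
  · intro hc
    refine Equiv.ext fun x => Subtype.ext ?_
    show (n : G) * x.1 * (n : G)⁻¹ = x.1
    have : (n : G) * x.1 = x.1 * (n : G) := (Subgroup.mem_centralizer_iff.1 hc x.1 x.2.1).symm
    rw [this]
    group

theorem ker_invHom (hab : ∀ a ∈ (P : Subgroup G), ∀ b ∈ (P : Subgroup G), a * b = b * a) :
    (invHom (P : Subgroup G)).ker =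
      (Subgroup.centralizer ((P : Subgroup G) : Set G)).subgroupOf (Subgroup.normalizer ((P : Subgroup G) : Set G)) := by
  ext n
  rw [MonoidHom.mem_ker, Subgroup.mem_subgroupOf]
  exact mem_ker_invHom hab n

theorem relIndex_eq_card_range (hab : ∀ a ∈ (P : Subgroup G), ∀ b ∈ (P : Subgroup G), a * b = b * a) :
    (Subgroup.centralizer ((P : Subgroup G) : Set G)).relIndex (Subgroup.normalizer ((P : Subgroup G) : Set G)) =
      Nat.card (invHom (P : Subgroup G)).range := by
  rw [Subgroup.relIndex, ← ker_invHom hab, Subgroup.index_ker]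

theorem relIndex_one_or_three (hab : ∀ a ∈ (P : Subgroup G), ∀ b ∈ (P : Subgroup G), a * b = b * a)
    (hI : Nat.card (InvOf (P : Subgroup G)) = 3) :
    (Subgroup.centralizer ((P : Subgroup G) : Set G)).relIndex (Subgroup.normalizer ((P : Subgroup G) : Set G)) = 1 ∨
    (Subgroup.centralizer ((P : Subgroup G) : Set G)).relIndex (Subgroup.normalizer ((P : Subgroup G) : Set G)) = 3 := by
  classical
  have h1 := not_two_dvd_relIndex (P := P) hab
  have h2 : (Subgroup.centralizer ((P : Subgroup G) : Set G)).relIndex (Subgroup.normalizer ((P : Subgroup G) : Set G)) ∣ 6 := by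
    rw [relIndex_eq_card_range hab]
    have h3 := Subgroup.card_subgroup_dvd_card (invHom (P : Subgroup G)).range
    haveI : Finite (InvOf (P : Subgroup G)) := Nat.finite_of_card_ne_zero (by omega)
    haveI := Fintype.ofFinite (InvOf (P : Subgroup G))
    rw [Nat.card_eq_fintype_card (α := Equiv.Perm (InvOf (P : Subgroup G))), Fintype.card_perm,
      ← Nat.card_eq_fintype_card, hI] at h3
    exact h3
  generalize (Subgroup.centralizer ((P : Subgroup G) : Set G)).relIndex (Subgroup.normalizer ((P : Subgroup G) : Set G)) = r at *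
  have h3 : r ≤ 6 := Nat.le_of_dvd (by norm_num) h2
  interval_cases r <;> simp_all <;> omega

theorem sigma_cube (hab : ∀ a ∈ (P : Subgroup G), ∀ b ∈ (P : Subgroup G), a * b = b * a)
    (h3 : (Subgroup.centralizer ((P : Subgroup G) : Set G)).relIndex (Subgroup.normalizer ((P : Subgroup G) : Set G)) = 3)
    (n : Subgroup.normalizer ((P : Subgroup G) : Set G)) :
    (invHom (P : Subgroup G) n) ^ 3 = 1 := by
  have h4 := relIndex_eq_card_range hab
  rw [h3] at h4
  have h5 : (⟨invHom (P : Subgroup G) n, n, rfl⟩ : (invHom (P : Subgroup G)).range) ^ 3 = 1 := by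
    haveI : Finite (InvOf (P : Subgroup G)) ∨ True := Or.inr trivial
    rw [h4]
    exact pow_card_eq_one'
  exact congrArg Subtype.val h5

/-- Every nontrivial `2`-element of `P` has a power that is an involution. -/
theorem exists_inv_power {z : G} (hz : z ∈ (P : Subgroup G)) (hz1 : z ≠ 1) :
    ∃ k : ℕ, (z ^ k) ^ 2 = 1 ∧ z ^ k ≠ 1 := by
  obtain ⟨r, hr⟩ := P.isPGroup' ⟨z, hz⟩
  have hr' : z ^ (2 ^ r) = 1 := congrArg Subtype.val hr
  -- minimal exponent
  have hex : ∃ r, z ^ (2 ^ r) = 1 := ⟨r, hr'⟩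
  classical
  let r₀ := Nat.find hex
  have h₀ : z ^ (2 ^ r₀) = 1 := Nat.find_spec hex
  have hr₀ : r₀ ≠ 0 := by
    intro h
    rw [h] at h₀
    simp at h₀
    exact hz1 h₀
  refine ⟨2 ^ (r₀ - 1), ?_, ?_⟩
  · rw [← pow_mul, ← pow_succ, Nat.sub_add_cancel (Nat.pos_of_ne_zero hr₀)]
    exact h₀
  · exact Nat.find_min hex (by omega : r₀ - 1 < r₀)

/-- Statement S0945. -/
theorem homocyc_main (hab : ∀ a ∈ (P : Subgroup G), ∀ b ∈ (P : Subgroup G), a * b = b * a)
    (hI : Nat.card (InvOf (P : Subgroup G)) = 3) :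
    ((Subgroup.centralizer ((P : Subgroup G) : Set G)).relIndex (Subgroup.normalizer ((P : Subgroup G) : Set G)) = 1 ∨
     (Subgroup.centralizer ((P : Subgroup G) : Set G)).relIndex (Subgroup.normalizer ((P : Subgroup G) : Set G)) = 3) ∧
    ((Subgroup.centralizer ((P : Subgroup G) : Set G)).relIndex (Subgroup.normalizer ((P : Subgroup G) : Set G)) ≠ 1 →
      ∀ z ∈ (P : Subgroup G), z ≠ 1 → Subgroup.centralizer ({z} : Set G) ⊓ Subgroup.normalizer ((P : Subgroup G) : Set G) =
        Subgroup.centralizer ((P : Subgroup G) : Set G)) := by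
  classical
  refine ⟨relIndex_one_or_three hab hI, ?_⟩
  intro hne z hz hz1
  have h3 := (relIndex_one_or_three hab hI).resolve_left hne
  apply le_antisymm
  · rintro n ⟨hn1, hn2⟩
    by_contra hnc
    let n' : Subgroup.normalizer ((P : Subgroup G) : Set G) := ⟨n, hn2⟩
    have hσ1 : invHom (P : Subgroup G) n' ≠ 1 := fun h => hnc ((mem_ker_invHom hab n').1 h)
    have hσ3 := sigma_cube hab h3 n'
    obtain ⟨k, hk2, hk1⟩ := exists_inv_power hz hz1
    let t : InvOf (P : Subgroup G) := ⟨z ^ k, Subgroup.pow_mem _ hz k, hk2, hk1⟩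
    have hnz : n * z = z * n := by
      exact (Subgroup.mem_centralizer_iff.1 hn1 z rfl).symm
    have hfix : invHom (P : Subgroup G) n' t = t := by
      apply Subtype.ext
      show n * z ^ k * n⁻¹ = z ^ k
      have : Commute n (z ^ k) := (show Commute n z from hnz).pow_right k
      rw [this.eq]
      group
    have hfixk : ∀ j : ℕ, ((invHom (P : Subgroup G) n') ^ j) t = t := by
      intro j
      induction j with
      | zero => simp
      | succ j ih => rw [pow_succ, Equiv.Perm.mul_apply, hfix, ih]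
    obtain ⟨y, hy⟩ : ∃ y : InvOf (P : Subgroup G), y ≠ t := by
      haveI : Finite (InvOf (P : Subgroup G)) := Nat.finite_of_card_ne_zero (by omega)
      haveI : Nontrivial (InvOf (P : Subgroup G)) := by
        apply (Finite.one_lt_card_iff_nontrivial).1
        omega
      exact exists_ne t
    obtain ⟨j, hj⟩ := perm3 hI _ hσ3 hσ1 t y
    rw [hfixk] at hj
    exact hy hj.symm
  · intro c hc
    refine Subgroup.mem_inf.2 ⟨?_, centralizer_le_normalizer' _ hc⟩
    rw [Subgroup.mem_centralizer_iff]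
    intro y hy
    have hyz : y = z := hy
    rw [hyz]
    exact Subgroup.mem_centralizer_iff.1 hc z hz

/-- Statement S0946. -/
theorem homocyc_dichotomy (hab : ∀ a ∈ (P : Subgroup G), ∀ b ∈ (P : Subgroup G), a * b = b * a)
    (hI : Nat.card (InvOf (P : Subgroup G)) = 3) :
    (∃ N : Subgroup G, N.Normal ∧ Subgroup.IsComplement' N (P : Subgroup G)) ∨
      ∀ s t : G, orderOf s = 2 → orderOf t = 2 → IsConj s t := by
  classical
  rcases relIndex_one_or_three hab hI with h1 | h3
  · left
    have hN : Subgroup.normalizer ((P : Subgroup G) : Set G) ≤ Subgroup.centralizer ((P : Subgroup G) : Set G) := by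
      have := Subgroup.relIndex_eq_one.1 h1
      exact this
    exact ⟨(MonoidHom.transferSylow P hN).ker, inferInstance, MonoidHom.ker_transferSylow_isComplement' P hN⟩
  · right
    -- an element outside the centralizer
    obtain ⟨n, hn⟩ : ∃ n : Subgroup.normalizer ((P : Subgroup G) : Set G),
        (n : G) ∉ Subgroup.centralizer ((P : Subgroup G) : Set G) := by
      by_contra hc
      push Not at hc
      have : (Subgroup.centralizer ((P : Subgroup G) : Set G)).relIndex (Subgroup.normalizer ((P : Subgroup G) : Set G)) = 1 :=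
        Subgroup.relIndex_eq_one.2 fun x hx => hc ⟨x, hx⟩
      omega
    have hσ1 : invHom (P : Subgroup G) n ≠ 1 := fun h => hn ((mem_ker_invHom hab n).1 h)
    have hσ3 := sigma_cube hab h3 n
    have hintoP : ∀ s : G, orderOf s = 2 → ∃ x : InvOf (P : Subgroup G), IsConj s x.1 := by
      intro s hs
      have hp : IsPGroup 2 (Subgroup.zpowers s) := by
        rw [IsPGroup.iff_card, Nat.card_zpowers, hs]
        exact ⟨1, by norm_num⟩
      obtain ⟨Q, hQ⟩ := hp.exists_le_sylow
      obtain ⟨g, hg⟩ := MulAction.exists_smul_eq G Q P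
      have hsQ : s ∈ (Q : Subgroup G) := hQ (Subgroup.mem_zpowers s)
      have hmem : g * s * g⁻¹ ∈ (P : Subgroup G) := by
        rw [← hg]
        show g * s * g⁻¹ ∈ ((g • Q : Sylow 2 G) : Subgroup G)
        rw [Sylow.coe_subgroup_smul]
        exact Subgroup.mem_map.2 ⟨s, hsQ, rfl⟩
      refine ⟨⟨g * s * g⁻¹, hmem, ?_, ?_⟩, isConj_iff.2 ⟨g, rfl⟩⟩
      · rw [conj_pow, ← hs, pow_orderOf_eq_one]; simp
      · intro h
        have : s = 1 := by
          have h2 : g * s = g := by
            have := congrArg (· * g) h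
            simpa using this
          simpa using h2
        rw [this, orderOf_one] at hs
        omega
    intro s t hs ht
    obtain ⟨x, hx⟩ := hintoP s hs
    obtain ⟨y, hy⟩ := hintoP t ht
    obtain ⟨k, hk⟩ := perm3 hI _ hσ3 hσ1 x y
    refine hx.trans (IsConj.trans ?_ hy.symm)
    rw [← hk, ← map_pow]
    exact isConj_iff.2 ⟨((n ^ k : Subgroup.normalizer ((P : Subgroup G) : Set G)) : G), rfl⟩

end Main

end Cfsg.Agent.H04
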