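import Cfsg.Agent.Lib.H04.CharBasic
import Cfsg.Prelude.Def_Blocks
import Mathlib

set_option autoImplicit false
set_option linter.style.haveILetI false

namespace Cfsg.Agent.H04

open Cfsg
open scoped Classical

section
variable {G : Type*} [Group G]

/-- The number of `x` conjugating `g` to `y`. -/
theorem card_conj_fiber [Finite G] (g y : G) :
    Nat.card {x : G // x⁻¹ * g * x = y} =
      if IsConj g y then Nat.card (Subgroup.centralizer ({g} : Set G)) else 0 := by
  classical
  split_ifs with h
  · obtain ⟨c, hc⟩ := isConj_iff.mp h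
    symm
    apply Nat.card_congr
    refine
      { toFun := fun z => ⟨z.1 * c⁻¹, ?_⟩
        invFun := fun x => ⟨x.1 * c, ?_⟩
        left_inv := fun z => by apply Subtype.ext; simp
        right_inv := fun x => by apply Subtype.ext; simp }
    · have hz : z.1 * g = g * z.1 := by
        have := Subgroup.mem_centralizer_iff.mp z.2 g rfl
        exact this.symm
      rw [← hc]
      calc (z.1 * c⁻¹)⁻¹ * g * (z.1 * c⁻¹) = c * z.1⁻¹ * (g * z.1) * c⁻¹ := by group
        _ = c * z.1⁻¹ * (z.1 * g) * c⁻¹ := by rw [hz]
        _ = c * g * c⁻¹ := by group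
    · rw [Subgroup.mem_centralizer_iff]
      intro w hw
      rw [Set.mem_singleton_iff] at hw
      subst hw
      have hx : x.1⁻¹ * w * x.1 = c * w * c⁻¹ := x.2.trans hc.symm
      have h2 : w * x.1 = x.1 * (c * w * c⁻¹) := by rw [← hx]; group
      calc w * (x.1 * c) = (w * x.1) * c := by group
        _ = x.1 * (c * w * c⁻¹) * c := by rw [h2]
        _ = x.1 * c * w := by group
  · apply Nat.card_eq_zero.mpr
    left
    constructor
    rintro ⟨x, hx⟩
    apply h
    rw [isConj_iff]
    exact ⟨x⁻¹, by simpa using hx⟩

/-- Value of extension by zero as a sum over the subgroup. -/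
theorem extendByZero_eq_sum (H : Subgroup G) [Fintype H] (f : H → ℂ) (y : G) :
    extendByZero H f y = ∑ h : H, if (h : G) = y then f h else 0 := by
  classical
  unfold extendByZero
  by_cases hy : y ∈ H
  · have : y = ((⟨y, hy⟩ : H) : G) := rfl
    rw [this, Function.Injective.extend_apply Subtype.val_injective]
    rw [Finset.sum_eq_single (⟨y, hy⟩ : H)]
    · simp
    · intro b _ hb
      rw [if_neg]
      intro h
      exact hb (Subtype.ext h)
    · simp
  · rw [Function.extend_apply']
    · symm
      apply Finset.sum_eq_zero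
      intro h _
      rw [if_neg]
      · intro hh
        exact hy (hh ▸ h.2)
    · rintro ⟨a, rfl⟩
      exact hy a.2

/-- The sum over `G` of the conjugates of `g`, extension by zero. -/
theorem sum_extendByZero_conj [Fintype G] (H : Subgroup G) [Fintype H] (f : H → ℂ) (g : G) :
    ∑ x : G, extendByZero H f (x⁻¹ * g * x) =
      ∑ h : H, (if IsConj g (h : G) then (Nat.card (Subgroup.centralizer ({g} : Set G)) : ℂ) else 0) * f h := by
  classical
  simp_rw [extendByZero_eq_sum]
  rw [Finset.sum_comm]
  apply Finset.sum_congr rfl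
  intro h _
  have h1 : ∀ x : G, (if (h : G) = x⁻¹ * g * x then f h else 0) = (if x⁻¹ * g * x = (h : G) then (1 : ℂ) else 0) * f h := by
    intro x
    by_cases hx : (h : G) = x⁻¹ * g * x
    · simp [hx]
    · rw [if_neg hx, if_neg (fun h' => hx h'.symm), zero_mul]
  simp_rw [h1]
  rw [← Finset.sum_mul]
  congr 1
  have h2 := card_conj_fiber g (h : G)
  have h3 : (∑ x : G, if x⁻¹ * g * x = (h : G) then (1 : ℂ) else 0) = (Nat.card {x : G // x⁻¹ * g * x = (h : G)} : ℂ) := by
    rw [Nat.card_eq_fintype_card, Fintype.card_subtype, Finset.sum_boole]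
  rw [h3, h2]
  split_ifs <;> simp

end

end Cfsg.Agent.H04
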