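import Cfsg.Agent.Lib.H04.ZassOdd
import Cfsg.Agent.Lib.H04.Small.Tools
import Mathlib

set_option autoImplicit false
set_option linter.style.haveILetI false
set_option linter.unusedSectionVars false
set_option linter.unusedVariables false

namespace Cfsg.Agent.H04.ZC

open Cfsg MulAction Finset

variable {G : Type*} [Group G] [Fintype G]

open scoped Classical in
/-- The involutions. -/
noncomputable def InvS (G : Type*) [Group G] [Fintype G] : Finset G := univ.filter (fun x : G => orderOf x = 2)

open scoped Classical in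
/-- number of factorizations into two involutions. -/
noncomputable def sP (z : G) : ℕ := ((InvS G ×ˢ InvS G).filter (fun p => p.1 * p.2 = z)).card

open scoped Classical in
theorem sP_le (z : G) : sP z ≤ Nat.card (Subgroup.centralizer ({z} : Set G)) := by
  by_cases hne : ((InvS G ×ˢ InvS G).filter (fun p => p.1 * p.2 = z)).Nonempty
  · obtain ⟨⟨x₀, y₀⟩, h₀⟩ := hne
    simp only [mem_filter, mem_product, InvS, mem_univ, true_and] at h₀
    obtain ⟨⟨hx₀, hy₀⟩, hz₀⟩ := h₀
    have hinvert : ∀ x y : G, orderOf x = 2 → orderOf y = 2 → x * y = z → x * z * x⁻¹ = z⁻¹ := by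
      intro x y hx hy hz
      rw [← hz, inv_eq_self_of_two hx, mul_inv_rev, inv_eq_self_of_two hx, inv_eq_self_of_two hy]
      have h1 : x * x = 1 := by rw [← sq, ← hx]; exact pow_orderOf_eq_one x
      rw [← mul_assoc x x, h1, one_mul]
    have h₀i := hinvert x₀ y₀ hx₀ hy₀ hz₀
    let φ : (G × G) → Subgroup.centralizer ({z} : Set G) := fun p =>
      if h : x₀⁻¹ * p.1 ∈ Subgroup.centralizer ({z} : Set G) then ⟨x₀⁻¹ * p.1, h⟩ else 1
    rw [sP, Nat.card_eq_fintype_card, ← Finset.card_univ]
    apply Finset.card_le_card_of_injOn φ (fun _ _ => mem_coe.mpr (mem_univ _))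
    have hmem : ∀ p ∈ (InvS G ×ˢ InvS G).filter (fun p => p.1 * p.2 = z), x₀⁻¹ * p.1 ∈ Subgroup.centralizer ({z} : Set G) := by
      rintro ⟨x, y⟩ hp
      simp only [mem_filter, mem_product, InvS, mem_univ, true_and] at hp
      obtain ⟨⟨hx, hy⟩, hz⟩ := hp
      have hi := hinvert x y hx hy hz
      rw [Subgroup.mem_centralizer_iff]
      intro g hg
      have hg' : g = z := hg
      rw [hg']
      have h2 : (x₀⁻¹ * x) * z * (x₀⁻¹ * x)⁻¹ = z := by
        calc (x₀⁻¹ * x) * z * (x₀⁻¹ * x)⁻¹ = x₀⁻¹ * (x * z * x⁻¹) * x₀ := by group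
          _ = x₀⁻¹ * z⁻¹ * x₀ := by rw [hi]
          _ = x₀⁻¹ * (x₀ * z * x₀⁻¹) * x₀ := by rw [h₀i]
          _ = z := by group
      calc z * (x₀⁻¹ * x) = ((x₀⁻¹ * x) * z * (x₀⁻¹ * x)⁻¹) * (x₀⁻¹ * x) := by rw [h2]
        _ = (x₀⁻¹ * x) * z := by group
    intro p hp q hq hpq
    have hp' := mem_coe.mp hp
    have hq' := mem_coe.mp hq
    have h1 := hmem p hp'
    have h2 := hmem q hq'
    simp only [φ, h1, h2, dif_pos] at hpq
    have h3 : x₀⁻¹ * p.1 = x₀⁻¹ * q.1 := congrArg Subtype.val hpq
    have h4 : p.1 = q.1 := mul_left_cancel h3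
    have h5 : p.1 * p.2 = z := (mem_filter.mp hp').2
    have h6 : q.1 * q.2 = z := (mem_filter.mp hq').2
    have h7 : p.2 = q.2 := by
      rw [← h6, ← h4] at h5
      exact mul_left_cancel h5
    exact Prod.ext h4 h7
  · rw [Finset.not_nonempty_iff_eq_empty] at hne
    rw [sP, hne]
    simp

open scoped Classical in
theorem sum_sP_le (Zs : Finset G) (K : Finset (ConjClasses G)) (h : ∀ z ∈ Zs, ConjClasses.mk z ∈ K) :
    ∑ z ∈ Zs, sP z ≤ K.card * Fintype.card G := by
  rw [← Finset.sum_fiberwise_of_maps_to (t := K) (g := fun z => ConjClasses.mk z) h]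
  have h1 : ∀ C ∈ K, ∑ z ∈ Zs.filter (fun z => ConjClasses.mk z = C), sP z ≤ Fintype.card G := by
    intro C _
    set F := Zs.filter (fun z => ConjClasses.mk z = C) with hF
    set c := Nat.card C.carrier with hc
    have hcpos : 0 < c := by
      obtain ⟨g, rfl⟩ := ConjClasses.mk_surjective C
      apply Nat.card_pos_iff.mpr
      exact ⟨⟨⟨g, ConjClasses.mem_carrier_mk⟩⟩, inferInstance⟩
    have hFc : F.card ≤ c := by
      rw [hc, ← Nat.card_eq_finsetCard]
      apply Nat.card_le_card_of_injective (fun z : F => (⟨z.1, by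
        have := (mem_filter.mp z.2).2
        rw [← this]
        exact ConjClasses.mem_carrier_mk⟩ : C.carrier))
      intro z w hzw
      have h7 := congrArg (fun t : C.carrier => (t : G)) hzw
      exact Subtype.ext h7
    have h2 : c * ∑ z ∈ F, sP z ≤ F.card * Fintype.card G := by
      rw [Finset.mul_sum, ← smul_eq_mul, ← Finset.sum_const]
      apply Finset.sum_le_sum
      intro z hz
      have h3 : ConjClasses.mk z = C := (mem_filter.mp hz).2
      have h4 := Small.card_carrier_mul_centralizer' z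
      rw [h3, ← hc, Nat.card_eq_fintype_card (α := G)] at h4
      rw [← h4]
      exact Nat.mul_le_mul_left c (sP_le z)
    have h3 : c * ∑ z ∈ F, sP z ≤ c * Fintype.card G :=
      h2.trans (Nat.mul_le_mul_right _ hFc)
    exact Nat.le_of_mul_le_mul_left h3 hcpos
  calc ∑ C ∈ K, ∑ z ∈ Zs.filter (fun z => ConjClasses.mk z = C), sP z
      ≤ ∑ C ∈ K, Fintype.card G := Finset.sum_le_sum h1
    _ = _ := by simp

variable {Ω : Type*} [MulAction G Ω] [Fintype Ω]

open scoped Classical in
/-- The pairs of distinct involutions with product having a single fixed point. -/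
noncomputable def P2 (G Ω : Type*) [Group G] [Fintype G] [MulAction G Ω] [Fintype Ω] : Finset (G × G) :=
  (InvS G ×ˢ InvS G).filter (fun p => p.1 ≠ p.2 ∧ fx (Ω := Ω) (p.1 * p.2) = 1)

open scoped Classical in
/-- The elements which are neither the identity nor have a single fixed point. -/
noncomputable def Zs (G Ω : Type*) [Group G] [Fintype G] [MulAction G Ω] [Fintype Ω] : Finset G :=
  univ.filter (fun z => z ≠ 1 ∧ fx (Ω := Ω) z ≠ 1)

open scoped Classical in
theorem pair_split : (InvS G).card ^ 2 ≤ (InvS G).card + (P2 G Ω).card + ∑ z ∈ Zs G Ω, sP z := by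
  set P := InvS G ×ˢ InvS G with hP
  have h1 : P.card = (InvS G).card ^ 2 := by rw [hP, card_product, sq]
  have h2 : ∑ z ∈ Zs G Ω, sP z = (P.filter (fun p => p.1 * p.2 ∈ Zs G Ω)).card := by
    rw [Finset.card_eq_sum_card_fiberwise (f := fun p : G × G => p.1 * p.2) (t := Zs G Ω)]
    · apply Finset.sum_congr rfl
      intro z hz
      rw [sP, Finset.filter_filter]
      congr 1
      ext p
      simp only [mem_filter]
      constructor
      · rintro ⟨hp, hpz⟩
        exact ⟨hp, by rw [hpz]; exact hz, hpz⟩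
      · rintro ⟨hp, _, hpz⟩
        exact ⟨hp, hpz⟩
    · intro p hp
      exact (mem_filter.mp hp).2
  have h3 : P ⊆ (P.filter (fun p => p.1 = p.2)) ∪ (P2 G Ω) ∪ (P.filter (fun p => p.1 * p.2 ∈ Zs G Ω)) := by
    intro p hp
    simp only [mem_union, mem_filter, P2, hp, true_and, Zs, mem_univ]
    by_cases h4 : p.1 = p.2
    · exact Or.inl (Or.inl h4)
    · by_cases h5 : fx (Ω := Ω) (p.1 * p.2) = 1
      · exact Or.inl (Or.inr ⟨mem_product.mp hp |> fun q => mem_product.mpr q, h4, h5⟩)
      · refine Or.inr ⟨?_, h5⟩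
        intro h6
        apply h4
        have h7 : orderOf p.1 = 2 := (mem_filter.mp (mem_product.mp hp).1).2
        have h8 := inv_eq_self_of_two h7
        have h9 : p.1⁻¹ = p.2 := inv_eq_of_mul_eq_one_right h6
        rw [← h9, h8]
  have h4 : (P.filter (fun p => p.1 = p.2)).card = (InvS G).card := by
    apply Finset.card_bij (fun p _ => p.1)
    · intro p hp
      exact (mem_product.mp (mem_filter.mp hp).1).1
    · rintro ⟨x, y⟩ hp ⟨x', y'⟩ hq h
      have h5 : x = y := (mem_filter.mp hp).2
      have h6 : x' = y' := (mem_filter.mp hq).2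
      have h7 : x = x' := h
      subst h5 h6 h7
      rfl
    · intro x hx
      exact ⟨(x, x), mem_filter.mpr ⟨mem_product.mpr ⟨hx, hx⟩, rfl⟩, rfl⟩
  rw [← h1, h2, ← h4]
  exact (Finset.card_le_card h3).trans ((card_union_le _ _).trans (Nat.add_le_add_right (card_union_le _ _) _))

open scoped Classical in
theorem sum_bound (H : Subgroup G) {a : Ω}
    (hHfix : ∀ u ∈ H, u ≠ 1 → ∀ c : Ω, u • c = c → c = a) (hHa : H ≤ stabilizer G a) :
    ∑ z ∈ Zs G Ω, sP z ≤ Nat.card {C : ConjClasses G // ∀ g : G, ConjClasses.mk g = C → g ∉ H} * Fintype.card G := by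
  haveI : Fintype (ConjClasses G) := Fintype.ofFinite _
  set K := univ.filter (fun C : ConjClasses G => ∀ g : G, ConjClasses.mk g = C → g ∉ H) with hK
  have hKc : Nat.card {C : ConjClasses G // ∀ g : G, ConjClasses.mk g = C → g ∉ H} = K.card := by
    rw [Nat.card_eq_fintype_card, Fintype.card_subtype]
  rw [hKc]
  apply sum_sP_le
  intro z hz
  simp only [Zs, mem_filter, mem_univ, true_and] at hz
  simp only [hK, mem_filter, mem_univ, true_and]
  intro g hg hgH
  rw [ConjClasses.mk_eq_mk_iff_isConj] at hg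
  obtain ⟨c, hc⟩ := isConj_iff.mp hg
  have hg1 : g ≠ 1 := by
    rintro rfl
    apply hz.1
    rw [← hc]
    simp
  have hgfx : fx (Ω := Ω) g = 1 := by
    rw [fx, Finset.card_eq_one]
    refine ⟨a, ?_⟩
    ext d
    simp only [mem_filter, mem_univ, true_and, mem_singleton]
    exact ⟨hHfix g hgH hg1 d, fun h => by rw [h]; exact hHa hgH⟩
  apply hz.2
  rw [← hgfx, fx, fx, ← hc]
  apply Finset.card_bij (fun d _ => c⁻¹ • d)
  · intro d hd
    simp only [mem_filter, mem_univ, true_and] at hd ⊢
    have h1 : c * g * c⁻¹ = z := hc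
    rw [mul_smul, mul_smul] at hd
    rw [eq_inv_smul_iff]
    exact hd
  · intro d _ d' _ h
    exact MulAction.injective c⁻¹ h
  · intro d hd
    refine ⟨c • d, ?_, by simp⟩
    simp only [mem_filter, mem_univ, true_and] at hd ⊢
    simp [mul_smul, hd]

/-- An element inverted: a point fixed by `x y` alone is fixed by `x` and `y`. -/
theorem fix_of_unique_fix {x y : G} (hx : orderOf x = 2) (hy : orderOf y = 2)
    {c : Ω} (hc : (x * y) • c = c) (huniq : ∀ d : Ω, (x * y) • d = d → d = c) :
    x • c = c ∧ y • c = c := by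
  have hx2 : x * x = 1 := by rw [← sq, ← hx]; exact pow_orderOf_eq_one x
  have hy2 : y * y = 1 := by rw [← sq, ← hy]; exact pow_orderOf_eq_one y
  have hxi := inv_eq_self_of_two hx
  have hyi := inv_eq_self_of_two hy
  have hci : (y * x) • c = c := by
    have h1 : (x * y)⁻¹ = y * x := by rw [mul_inv_rev, hxi, hyi]
    rw [← h1, inv_smul_eq_iff, hc]
  have h1 : x • c = c := by
    apply huniq
    have h1 : (x * y) * x = x * (y * x) := by group
    rw [← mul_smul, h1, mul_smul, hci]
  refine ⟨h1, ?_⟩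
  rw [mul_smul] at hc
  apply MulAction.injective x
  show x • y • c = x • c
  rw [hc, h1]

open scoped Classical in
theorem card_inv_fix (hZ : IsZassenhausGroup G Ω) {a b : Ω} (hab : a ≠ b)
    (hN : Odd (Fintype.card Ω)) (e : ℕ) (hI : (InvS G).card = Fintype.card Ω * e) (c : Ω) :
    ((InvS G).filter (fun x => x • c = c)).card = e := by
  have hconj : ∀ d : Ω, ((InvS G).filter (fun x => x • d = d)).card = ((InvS G).filter (fun x => x • c = c)).card := by
    intro d
    obtain ⟨g, hg⟩ : ∃ g : G, g • d = c := by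
      by_cases hdc : d = c
      · exact ⟨1, by simp [hdc]⟩
      obtain ⟨d', hd'⟩ : ∃ d', d' ≠ d := by
        have : Nontrivial Ω := ⟨a, b, hab⟩
        exact exists_ne d
      obtain ⟨c', hc'⟩ : ∃ c', c' ≠ c := by
        have : Nontrivial Ω := ⟨a, b, hab⟩
        exact exists_ne c
      obtain ⟨g, hg, _⟩ := zass_two_trans hZ d d' c c' (Ne.symm hd') (Ne.symm hc')
      exact ⟨g, hg⟩
    apply Finset.card_bij (fun x _ => g * x * g⁻¹)
    · intro x hx
      simp only [InvS, mem_filter, mem_univ, true_and] at hx ⊢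
      constructor
      · rw [← MulAut.conj_apply, MulEquiv.orderOf_eq]
        exact hx.1
      · rw [← hg]
        simp only [mul_smul, inv_smul_smul, hx.2]
    · intro x _ y _ h
      have h1 := congrArg (fun z => g⁻¹ * z * g) h
      simpa [mul_assoc] using h1
    · intro y hy
      simp only [InvS, mem_filter, mem_univ, true_and] at hy
      refine ⟨g⁻¹ * y * g, ?_, by group⟩
      simp only [InvS, mem_filter, mem_univ, true_and]
      constructor
      · have : g⁻¹ * y * g = MulAut.conj g⁻¹ y := by simp [MulAut.conj_apply]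
        rw [this, MulEquiv.orderOf_eq]
        exact hy.1
      · simp only [mul_smul, hg, hy.2, inv_smul_eq_iff]
  have h1 : ∑ d : Ω, ((InvS G).filter (fun x => x • d = d)).card = (InvS G).card := by
    have h2 : ∑ d : Ω, ((InvS G).filter (fun x => x • d = d)).card = ∑ x ∈ InvS G, fx (Ω := Ω) x := by
      simp only [fx, Finset.card_filter]
      rw [Finset.sum_comm]
    rw [h2, Finset.sum_congr rfl (g := fun _ => 1)]
    · simp
    · intro x hx
      exact inv_fx_of_odd hZ hab (mem_filter.mp hx).2 hN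
  rw [Finset.sum_congr rfl (fun d _ => hconj d), hI] at h1
  simp only [Finset.sum_const, Finset.card_univ, smul_eq_mul] at h1
  have hpos : 0 < Fintype.card Ω := Fintype.card_pos_iff.mpr ⟨a⟩
  exact Nat.eq_of_mul_eq_mul_left hpos h1

open scoped Classical in
theorem P2_card_odd (hZ : IsZassenhausGroup G Ω) {a b : Ω} (hab : a ≠ b)
    (hN : Odd (Fintype.card Ω)) (e : ℕ) (hI : (InvS G).card = Fintype.card Ω * e) :
    (P2 G Ω).card ≤ Fintype.card Ω * (e * e - e) := by
  have h1 : P2 G Ω ⊆ (univ : Finset Ω).biUnion (fun c => ((InvS G).filter (fun x => x • c = c)).offDiag) := by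
    rintro ⟨x, y⟩ hp
    simp only [P2, mem_filter, mem_product, InvS, mem_univ, true_and] at hp
    obtain ⟨⟨hx, hy⟩, hne, hf⟩ := hp
    obtain ⟨c, hc⟩ := Finset.card_eq_one.mp hf
    have hc1 : (x * y) • c = c := by
      have : c ∈ univ.filter (fun d : Ω => (x * y) • d = d) := by rw [hc]; simp
      exact (mem_filter.mp this).2
    have huniq : ∀ d : Ω, (x * y) • d = d → d = c := by
      intro d hd
      have : d ∈ univ.filter (fun d : Ω => (x * y) • d = d) := by simp [hd]
      rw [hc] at this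
      exact mem_singleton.mp this
    obtain ⟨hxc, hyc⟩ := fix_of_unique_fix hx hy hc1 huniq
    simp only [mem_biUnion, mem_univ, true_and, mem_offDiag, mem_filter, InvS]
    exact ⟨c, ⟨hx, hxc⟩, ⟨hy, hyc⟩, hne⟩
  refine (Finset.card_le_card h1).trans (Finset.card_biUnion_le.trans ?_)
  rw [Finset.sum_congr rfl (g := fun _ => e * e - e)]
  · simp
  · intro c _
    rw [Finset.offDiag_card, card_inv_fix hZ hab hN e hI c]

open scoped Classical in
theorem P2_card_even (hZ : IsZassenhausGroup G Ω) {a b : Ω} (hab : a ≠ b)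
    (hodd : Odd (Nat.card ↥(stabilizer G a ⊓ stabilizer G b : Subgroup G)))
    (hN : Even (Fintype.card Ω)) : (P2 G Ω).card = 0 := by
  rw [Finset.card_eq_zero, Finset.eq_empty_iff_forall_notMem]
  rintro ⟨x, y⟩ hp
  simp only [P2, mem_filter, mem_product, InvS, mem_univ, true_and] at hp
  obtain ⟨⟨hx, hy⟩, hne, hf⟩ := hp
  obtain ⟨c, hc⟩ := Finset.card_eq_one.mp hf
  have hc1 : (x * y) • c = c := by
    have : c ∈ univ.filter (fun d : Ω => (x * y) • d = d) := by rw [hc]; simp
    exact (mem_filter.mp this).2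
  have huniq : ∀ d : Ω, (x * y) • d = d → d = c := by
    intro d hd
    have : d ∈ univ.filter (fun d : Ω => (x * y) • d = d) := by simp [hd]
    rw [hc] at this
    exact mem_singleton.mp this
  obtain ⟨hxc, hyc⟩ := fix_of_unique_fix hx hy hc1 huniq
  have h0 := inv_fx_of_even hZ hab hodd hx hN
  rw [fx, Finset.card_eq_zero, Finset.filter_eq_empty_iff] at h0
  exact h0 (mem_univ c) hxc

end Cfsg.Agent.H04.ZC
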