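import Cfsg.Prelude.Def_LieExceptional
import Cfsg.Agent.Lib.H04.Basic
import Mathlib

set_option autoImplicit false
set_option linter.style.haveILetI false

namespace Cfsg.Agent.H04

open Cfsg MulAction

section
variable {G Ω : Type*} [Group G] [MulAction G Ω]

theorem zass_two_trans (hZ : IsZassenhausGroup G Ω) (a b c d : Ω) (hab : a ≠ b) (hcd : c ≠ d) :
    ∃ g : G, g • a = c ∧ g • b = d := by
  have h2 := hZ.2.1
  rw [MulAction.is_two_pretransitive_iff] at h2
  exact h2 hab hcd

theorem zass_no_three (hZ : IsZassenhausGroup G Ω) (g : G) {a b c : Ω} (hab : a ≠ b) (hbc : b ≠ c) (hac : a ≠ c)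
    (ha : g • a = a) (hb : g • b = b) (hc : g • c = c) : g = 1 :=
  hZ.2.2.1 g a b c hab hbc hac ha hb hc

theorem zass_exists_fixing (hZ : IsZassenhausGroup G Ω) {a b : Ω} (hab : a ≠ b) :
    ∃ g : G, g ≠ 1 ∧ g • a = a ∧ g • b = b := by
  obtain ⟨g, hg, c, d, hcd, hc, hd⟩ := hZ.2.2.2.1
  obtain ⟨t, ht1, ht2⟩ := zass_two_trans hZ c d a b hcd hab
  refine ⟨t * g * t⁻¹, ?_, ?_, ?_⟩
  · intro h
    apply hg
    have : g = t⁻¹ * (t * g * t⁻¹) * t := by group
    rw [this, h]; group
  · rw [← ht1]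
    simp [mul_smul, hc]
  · rw [← ht2]
    simp [mul_smul, hd]

theorem zass_exists_third (hZ : IsZassenhausGroup G Ω) (a b : Ω) (hab : a ≠ b) :
    ∃ c : Ω, c ≠ a ∧ c ≠ b := by
  obtain ⟨g, hg, ha, hb⟩ := zass_exists_fixing hZ hab
  haveI := hZ.1
  have : ∃ c : Ω, g • c ≠ c := by
    by_contra hcon
    push Not at hcon
    apply hg
    apply FaithfulSMul.eq_of_smul_eq_smul (α := Ω)
    intro c
    rw [hcon c, one_smul]
  obtain ⟨c, hc⟩ := this
  refine ⟨c, ?_, ?_⟩
  · rintro rfl; exact hc ha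
  · rintro rfl; exact hc hb

/-- If `H` is a regular subgroup on the points other than `a`, every element of the stabilizer
normalizes `H`. -/
theorem zass_kernel_normal [Finite G] [Fintype Ω] (hZ : IsZassenhausGroup G Ω) (a : Ω) (H : Subgroup G)
    (hHa : H ≤ MulAction.stabilizer G a) (hHcard : Nat.card H + 1 = Fintype.card Ω)
    (hHfix : ∀ u ∈ H, u ≠ 1 → ∀ c : Ω, u • c = c → c = a) (g : G) (hg : g • a = a) (u : G)
    (hu : u ∈ H) : g * u * g⁻¹ ∈ H := by
  classical
  by_cases hu1 : u = 1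
  · rw [hu1]; simp [H.one_mem]
  let X := {b : Ω // b ≠ a}
  have hXcard : Nat.card X = Nat.card H := by
    have h1 : Fintype.card X = Fintype.card Ω - 1 := by
      simp [X]
    rw [Nat.card_eq_fintype_card, h1]
    omega
  have hfixa : ∀ h ∈ H, h • a = a := fun h hh => hHa hh
  have hstay : ∀ (y : G), y • a = a → ∀ c : Ω, c ≠ a → y • c ≠ a := by
    intro y hy c hc h
    apply hc
    have : y • c = y • a := by rw [h, hy]
    exact MulAction.injective y this
  -- H is transitive on X
  have htrans : ∀ d e : X, ∃ h : H, (h : G) • (d : Ω) = e := by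
    intro d e
    let f : H → X := fun h => ⟨(h : G) • (d : Ω), hstay h (hfixa h h.2) d d.2⟩
    have hf : Function.Injective f := by
      intro h1 h2 h12
      have h3 : (h1 : G) • (d : Ω) = (h2 : G) • (d : Ω) := congrArg Subtype.val h12
      by_contra hne
      have hne' : (h2 : G)⁻¹ * h1 ≠ 1 := by
        intro h
        apply hne
        apply Subtype.ext
        exact (inv_mul_eq_one.mp h).symm
      apply d.2
      apply hHfix _ (H.mul_mem (H.inv_mem h2.2) h1.2) hne'
      rw [mul_smul, h3, inv_smul_smul]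
    have hb := hf.bijective_of_nat_card_le hXcard.le
    obtain ⟨h, hh⟩ := hb.2 e
    exact ⟨h, congrArg Subtype.val hh⟩
  -- uniqueness of the transporter
  have huniq : ∀ (h1 h2 : H) (d : Ω), d ≠ a → (h1 : G) • d = (h2 : G) • d → h1 = h2 := by
    intro h1 h2 d hd h12
    by_contra hne
    have hne' : (h2 : G)⁻¹ * h1 ≠ 1 := by
      intro h
      apply hne
      apply Subtype.ext
      exact (inv_mul_eq_one.mp h).symm
    apply hd
    apply hHfix _ (H.mul_mem (H.inv_mem h2.2) h1.2) hne'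
    rw [mul_smul, h12, inv_smul_smul]
  -- a point other than a
  obtain ⟨b, hb⟩ : ∃ b : Ω, b ≠ a := by
    have : 1 < Fintype.card Ω := by
      have h0 : 0 < Nat.card H := Nat.card_pos
      omega
    obtain ⟨x, y, hxy⟩ := Fintype.one_lt_card_iff.mp this
    by_cases hx : x = a
    · exact ⟨y, fun h => hxy (hx.trans h.symm)⟩
    · exact ⟨x, hx⟩
  set x := g * u * g⁻¹ with hx
  have hxa : x • a = a := by
    rw [hx, mul_smul, mul_smul]
    have h1 : g⁻¹ • a = a := by rw [inv_smul_eq_iff, hg]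
    rw [h1, hfixa u hu, hg]
  -- x has no fixed point other than a
  have hxfix : ∀ c : Ω, c ≠ a → x • c ≠ c := by
    intro c hc h
    rw [hx, mul_smul, mul_smul] at h
    have h2 : u • (g⁻¹ • c) = g⁻¹ • c := by
      rw [eq_inv_smul_iff]
      exact h
    have h3 := hHfix u hu hu1 _ h2
    apply hc
    rw [inv_smul_eq_iff, hg] at h3
    exact h3
  obtain ⟨h, hh⟩ := htrans ⟨b, hb⟩ ⟨x • b, hstay x hxa b hb⟩
  have hh' : (h : G) • b = x • b := hh
  let k := (h : G)⁻¹ * x
  have hka : k • a = a := by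
    show ((h : G)⁻¹ * x) • a = a
    rw [mul_smul, hxa, inv_smul_eq_iff, hfixa h h.2]
  have hkb : k • b = b := by
    show ((h : G)⁻¹ * x) • b = b
    rw [mul_smul, ← hh', inv_smul_smul]
  by_cases hk1 : k = 1
  · have : x = h := by
      have h5 : (h : G)⁻¹ * x = 1 := hk1
      exact inv_mul_eq_one.mp h5 ▸ rfl
    rw [this]; exact h.2
  exfalso
  have hkH : k ∉ H := fun hk => hb (hHfix k hk hk1 b hkb)
  -- φ : c ↦ the unique h' with h' • (k • c) = c
  have hex : ∀ c : X, ∃ h' : H, (h' : G) • (k • (c : Ω)) = c := by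
    intro c
    exact htrans ⟨k • (c : Ω), hstay k hka c c.2⟩ c
  choose φ hφ using hex
  have hφinj : Function.Injective φ := by
    intro c d hcd
    by_contra hne
    have hne' : (c : Ω) ≠ d := fun h => hne (Subtype.ext h)
    -- φ c * k fixes a, c, d
    have h1 : ((φ c : G) * k) • a = a := by rw [mul_smul, hka, hfixa _ (φ c).2]
    have h2 : ((φ c : G) * k) • (c : Ω) = c := by rw [mul_smul]; exact hφ c
    have h3 : ((φ c : G) * k) • (d : Ω) = d := by rw [mul_smul, hcd]; exact hφ d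
    have h4 := zass_no_three hZ ((φ c : G) * k) (Ne.symm c.2) hne' (Ne.symm d.2) h1 h2 h3
    apply hkH
    have : k = (φ c : G)⁻¹ := eq_inv_of_mul_eq_one_right h4
    rw [this]
    exact H.inv_mem (φ c).2
  have hφbij := hφinj.bijective_of_nat_card_le hXcard.ge
  obtain ⟨c, hc⟩ := hφbij.2 h
  have h6 : (h : G) • (k • (c : Ω)) = c := by rw [← hc]; exact hφ c
  apply hxfix c c.2
  have h7 : (h : G) * k = x := by
    show (h : G) * ((h : G)⁻¹ * x) = x
    group
  rw [← h7, mul_smul]
  exact h6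

end

end Cfsg.Agent.H04
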