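import Cfsg.Prelude.Def_LieExceptional
import Cfsg.Agent.Lib.H04.Zassenhaus
import Mathlib

set_option autoImplicit false
set_option linter.style.haveILetI false

namespace Cfsg.Agent.H04.ZC

open Cfsg MulAction Finset

variable {G Ω : Type*} [Group G] [Fintype G] [MulAction G Ω] [Fintype Ω]

open scoped Classical in
/-- number of fixed points -/
noncomputable def fx (g : G) : ℕ := (univ.filter (fun c : Ω => g • c = c)).card

open scoped Classical in
/-- transporter count -/
noncomputable def S2 (a b c d : Ω) : ℕ := (univ.filter (fun g : G => g • a = c ∧ g • b = d)).card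

open scoped Classical in
noncomputable def T1 (a c : Ω) : ℕ := (univ.filter (fun g : G => g • a = c)).card

open scoped Classical in
theorem S2_eq (hZ : IsZassenhausGroup G Ω) {a b c d : Ω} (hab : a ≠ b) (hcd : c ≠ d) :
    (S2 (G := G) a b c d) = Nat.card ↥(stabilizer G a ⊓ stabilizer G b : Subgroup G) := by
  obtain ⟨t, ht1, ht2⟩ := zass_two_trans hZ a b c d hab hcd
  rw [S2, Nat.card_eq_fintype_card, ← Finset.card_univ]
  symm
  apply Finset.card_bij (fun (x : ↥(stabilizer G a ⊓ stabilizer G b : Subgroup G)) _ => t * (x : G))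
  · intro x _
    have h1 : (x : G) • a = a := x.2.1
    have h2 : (x : G) • b = b := x.2.2
    simp [mul_smul, h1, h2, ht1, ht2]
  · intro x _ y _ h
    exact Subtype.ext (mul_left_cancel h)
  · intro g hg
    simp only [mem_filter, mem_univ, true_and] at hg
    refine ⟨⟨t⁻¹ * g, ?_, ?_⟩, mem_univ _, ?_⟩
    · show (t⁻¹ * g) • a = a
      rw [mul_smul, hg.1, inv_smul_eq_iff, ht1]
    · show (t⁻¹ * g) • b = b
      rw [mul_smul, hg.2, inv_smul_eq_iff, ht2]
    · simp

open scoped Classical in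
theorem S2_symm (a b c d : Ω) : S2 (G := G) a b c d = S2 (G := G) c d a b := by
  rw [S2, S2]
  apply Finset.card_bij (fun g _ => g⁻¹)
  · intro g hg
    simp only [mem_filter, mem_univ, true_and] at hg ⊢
    rw [inv_smul_eq_iff, inv_smul_eq_iff]
    exact ⟨hg.1.symm, hg.2.symm⟩
  · intro x _ y _ h
    exact inv_injective h
  · intro g hg
    simp only [mem_filter, mem_univ, true_and] at hg
    refine ⟨g⁻¹, ?_, inv_inv g⟩
    simp only [mem_filter, mem_univ, true_and]
    rw [inv_smul_eq_iff, inv_smul_eq_iff]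
    exact ⟨hg.1.symm, hg.2.symm⟩

theorem stab_card_eq (hZ : IsZassenhausGroup G Ω) {a b c d : Ω} (hab : a ≠ b) (hcd : c ≠ d) :
    Nat.card ↥(stabilizer G c ⊓ stabilizer G d : Subgroup G) = Nat.card ↥(stabilizer G a ⊓ stabilizer G b : Subgroup G) := by
  rw [← S2_eq hZ hab hcd, ← S2_eq hZ hcd hab, S2_symm]

open scoped Classical in
theorem T1_eq (hZ : IsZassenhausGroup G Ω) {a b : Ω} (hab : a ≠ b) (c : Ω) :
    T1 (G := G) a c = (Fintype.card Ω - 1) * Nat.card ↥(stabilizer G a ⊓ stabilizer G b : Subgroup G) := by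
  have h1 : T1 (G := G) a c = ∑ d ∈ univ.erase c, S2 (G := G) a b c d := by
    rw [T1]
    rw [Finset.card_eq_sum_card_fiberwise (f := fun g : G => g • b) (t := univ.erase c)]
    · apply Finset.sum_congr rfl
      intro d _
      rw [S2]
      congr 1
      ext g
      simp
    · intro g hg
      simp only [coe_filter, mem_univ, true_and, Set.mem_setOf_eq] at hg
      simp only [coe_erase, coe_univ, Set.mem_diff, Set.mem_univ, Set.mem_singleton_iff, true_and]
      intro h
      apply hab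
      apply MulAction.injective g
      show g • a = g • b
      rw [hg, h]
  rw [h1, Finset.sum_congr rfl (fun d hd => S2_eq hZ hab (Ne.symm (Finset.ne_of_mem_erase hd)))]
  simp

open scoped Classical in
theorem card_G (hZ : IsZassenhausGroup G Ω) {a b : Ω} (hab : a ≠ b) :
    Fintype.card G = Fintype.card Ω * ((Fintype.card Ω - 1) * Nat.card ↥(stabilizer G a ⊓ stabilizer G b : Subgroup G)) := by
  have h1 : Fintype.card G = ∑ c : Ω, T1 (G := G) a c := by
    rw [← Finset.card_univ]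
    rw [Finset.card_eq_sum_card_fiberwise (f := fun g : G => g • a) (t := univ)]
    · rfl
    · intro g _; simp
  rw [h1, Finset.sum_congr rfl (fun c _ => T1_eq hZ hab c)]
  simp

open scoped Classical in
theorem sum_fx (hZ : IsZassenhausGroup G Ω) {a b : Ω} (hab : a ≠ b) :
    ∑ g : G, fx (Ω := Ω) g = Fintype.card G := by
  have h1 : ∑ g : G, fx (Ω := Ω) g = ∑ c : Ω, T1 (G := G) c c := by
    simp only [fx, T1, Finset.card_filter]
    rw [Finset.sum_comm]
  rw [h1, card_G hZ hab]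
  have h2 : ∀ c : Ω, T1 (G := G) c c = (Fintype.card Ω - 1) * Nat.card ↥(stabilizer G a ⊓ stabilizer G b : Subgroup G) := by
    intro c
    obtain ⟨c', hc'⟩ : ∃ c' : Ω, c ≠ c' := by
      have : Nontrivial Ω := ⟨a, b, hab⟩
      obtain ⟨c', h⟩ := exists_ne c
      exact ⟨c', h.symm⟩
    rw [T1_eq hZ hc' c, stab_card_eq hZ hab hc']
  simp [h2]

open scoped Classical in
theorem sum_fx_sq (hZ : IsZassenhausGroup G Ω) {a b : Ω} (hab : a ≠ b) :
    ∑ g : G, (fx (Ω := Ω) g) ^ 2 = 2 * Fintype.card G := by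
  set e := Nat.card ↥(stabilizer G a ⊓ stabilizer G b : Subgroup G) with he
  have h1 : ∑ g : G, (fx (Ω := Ω) g) ^ 2 = ∑ c : Ω, ∑ d : Ω, S2 (G := G) c d c d := by
    simp only [fx, S2, Finset.card_filter, sq, Finset.sum_mul_sum]
    rw [Finset.sum_comm]
    apply Finset.sum_congr rfl
    intro c _
    rw [Finset.sum_comm]
    apply Finset.sum_congr rfl
    intro d _
    apply Finset.sum_congr rfl
    intro g _
    by_cases h1 : g • c = c <;> by_cases h2 : g • d = d <;> simp [h1, h2]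
  have h2 : ∀ c : Ω, ∑ d : Ω, S2 (G := G) c d c d = 2 * ((Fintype.card Ω - 1) * e) := by
    intro c
    obtain ⟨c', hc'⟩ : ∃ c' : Ω, c ≠ c' := by
      have : Nontrivial Ω := ⟨a, b, hab⟩
      obtain ⟨c', h⟩ := exists_ne c
      exact ⟨c', h.symm⟩
    have he' : Nat.card ↥(stabilizer G c ⊓ stabilizer G c' : Subgroup G) = e := stab_card_eq hZ hab hc'
    rw [← Finset.add_sum_erase _ _ (mem_univ c)]
    have h3 : S2 (G := G) c c c c = T1 (G := G) c c := by
      simp [S2, T1]
    rw [h3, T1_eq hZ hc' c, he']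
    rw [Finset.sum_congr rfl (fun d hd => S2_eq hZ (Ne.symm (Finset.ne_of_mem_erase hd)) (Ne.symm (Finset.ne_of_mem_erase hd)))]
    have h4 : ∀ d ∈ (univ : Finset Ω).erase c, Nat.card ↥(stabilizer G c ⊓ stabilizer G d : Subgroup G) = e := by
      intro d hd
      have hd' := Ne.symm (Finset.ne_of_mem_erase hd)
      exact stab_card_eq hZ hab hd'
    rw [Finset.sum_congr rfl h4]
    simp
    ring
  rw [h1, Finset.sum_congr rfl (fun c _ => h2 c), card_G hZ hab, ← he]
  simp only [Finset.sum_const, Finset.card_univ, smul_eq_mul]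
  ring

open scoped Classical in
theorem fx_le_two (hZ : IsZassenhausGroup G Ω) {g : G} (hg : g ≠ 1) : fx (Ω := Ω) g ≤ 2 := by
  by_contra hcon
  push Not at hcon
  obtain ⟨x, y, z, hx, hy, hz, hxy, hxz, hyz⟩ := Finset.two_lt_card_iff.mp hcon
  simp only [mem_filter, mem_univ, true_and] at hx hy hz
  exact hg (zass_no_three hZ g hxy hyz hxz hx hy hz)

open scoped Classical in
theorem fx_one : fx (Ω := Ω) (1 : G) = Fintype.card Ω := by
  simp [fx]

open scoped Classical in
/-- double count: `2 f₀ + (N-1)(N-2) = |G|`. -/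
theorem card_fpf (hZ : IsZassenhausGroup G Ω) {a b : Ω} (hab : a ≠ b) :
    2 * (univ.filter (fun g : G => fx (Ω := Ω) g = 0)).card + (Fintype.card Ω - 1) * (Fintype.card Ω - 2) = Fintype.card G := by
  have h1 := sum_fx hZ hab
  have h2 := sum_fx_sq hZ hab
  have hN : 2 ≤ Fintype.card Ω := by
    have : Nontrivial Ω := ⟨a, b, hab⟩
    exact Fintype.one_lt_card
  -- pointwise in ℤ
  have h3 : ∀ g : G, ((fx (Ω := Ω) g : ℤ) - 1) * ((fx (Ω := Ω) g : ℤ) - 2) =
      (if g = 1 then ((Fintype.card Ω : ℤ) - 1) * ((Fintype.card Ω : ℤ) - 2) else 0) + (if fx (Ω := Ω) g = 0 then 2 else 0) := by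
    intro g
    by_cases hg : g = 1
    · subst hg
      rw [fx_one]
      have : Fintype.card Ω ≠ 0 := by omega
      simp [this]
    · have := fx_le_two hZ hg
      simp only [hg, if_false, zero_add]
      have h5 : fx (Ω := Ω) g = 0 ∨ fx (Ω := Ω) g = 1 ∨ fx (Ω := Ω) g = 2 := by omega
      rcases h5 with h5 | h5 | h5 <;> simp [h5]
  have h4 : ∑ g : G, (((fx (Ω := Ω) g : ℤ) - 1) * ((fx (Ω := Ω) g : ℤ) - 2)) =
      ((Fintype.card Ω : ℤ) - 1) * ((Fintype.card Ω : ℤ) - 2) + 2 * ((univ.filter (fun g : G => fx (Ω := Ω) g = 0)).card : ℤ) := by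
    rw [Finset.sum_congr rfl (fun g _ => h3 g), Finset.sum_add_distrib, Finset.sum_ite_eq' ]
    simp [Finset.sum_ite, mul_comm]
  have h5 : ∑ g : G, (((fx (Ω := Ω) g : ℤ) - 1) * ((fx (Ω := Ω) g : ℤ) - 2)) =
      (∑ g : G, (fx (Ω := Ω) g : ℤ) ^ 2) - 3 * (∑ g : G, (fx (Ω := Ω) g : ℤ)) + 2 * (Fintype.card G : ℤ) := by
    have : ∀ g : G, ((fx (Ω := Ω) g : ℤ) - 1) * ((fx (Ω := Ω) g : ℤ) - 2) = (fx (Ω := Ω) g : ℤ) ^ 2 - 3 * (fx (Ω := Ω) g : ℤ) + 2 := by
      intro g; ring
    rw [Finset.sum_congr rfl (fun g _ => this g), Finset.sum_add_distrib, Finset.sum_sub_distrib, ← Finset.mul_sum]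
    simp [mul_comm]
  have h6 : (∑ g : G, (fx (Ω := Ω) g : ℤ) ^ 2) = 2 * (Fintype.card G : ℤ) := by exact_mod_cast h2
  have h7 : (∑ g : G, (fx (Ω := Ω) g : ℤ)) = (Fintype.card G : ℤ) := by exact_mod_cast h1
  rw [h5, h6, h7] at h4
  have h8 : (((Fintype.card Ω - 1 : ℕ) : ℤ)) = (Fintype.card Ω : ℤ) - 1 := by
    push_cast [show 1 ≤ Fintype.card Ω by omega]; ring
  have h9 : (((Fintype.card Ω - 2 : ℕ) : ℤ)) = (Fintype.card Ω : ℤ) - 2 := by
    push_cast [hN]; ring
  have h10 : ((2 * (univ.filter (fun g : G => fx (Ω := Ω) g = 0)).card + (Fintype.card Ω - 1) * (Fintype.card Ω - 2) : ℕ) : ℤ) = (Fintype.card G : ℤ) := by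
    push_cast
    rw [h8, h9]
    linarith
  exact_mod_cast h10

end Cfsg.Agent.H04.ZC
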