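import Cfsg.Agent.Lib.H04.ZassCount
import Cfsg.Agent.Lib.H09.Focal
import Mathlib

set_option autoImplicit false
set_option linter.style.haveILetI false
set_option linter.unusedSectionVars false
set_option linter.unusedVariables false

namespace Cfsg.Agent.H04.ZC

open Cfsg MulAction
open scoped commutatorElement

theorem top_of_sylow_le {E : Type*} [Group E] [Finite E] (K : Subgroup E)
    (h : ∀ p, p.Prime → ∀ S : Sylow p E, (S : Subgroup E) ≤ K) : K = ⊤ := by
  by_contra hne
  have h1 : K.index ≠ 1 := by rwa [Ne, Subgroup.index_eq_one]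
  obtain ⟨p, hp, hd⟩ := Nat.exists_prime_and_dvd h1
  haveI := Fact.mk hp
  let S : Sylow p E := default
  exact S.not_dvd_index (hd.trans (Subgroup.index_dvd_of_le (h p hp S)))

variable {G Ω : Type*} [Group G] [Finite G] [MulAction G Ω] [Fintype Ω]

theorem zass_commutator_top (hZ : IsZassenhausGroup G Ω) [IsSimpleGroup G] {a b : Ω} (hab : a ≠ b) :
    commutator G = ⊤ := by
  rcases (inferInstance : (commutator G).Normal).eq_bot_or_eq_top with h | h
  · exfalso
    have hcomm : ∀ g y : G, g * y = y * g := by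
      intro g y
      have h1 : ⁅g, y⁆ ∈ commutator G := by
        rw [commutator_def]
        exact Subgroup.commutator_mem_commutator (Subgroup.mem_top g) (Subgroup.mem_top y)
      rw [h, Subgroup.mem_bot] at h1
      exact commutatorElement_eq_one_iff_mul_comm.mp h1
    obtain ⟨g, hg1, hga, hgb⟩ := zass_exists_fixing hZ hab
    haveI := hZ.1
    apply hg1
    apply FaithfulSMul.eq_of_smul_eq_smul (α := Ω)
    intro c
    rw [one_smul]
    by_cases hca : c = a
    · rw [hca, hga]
    · obtain ⟨y, hy1, hy2⟩ := zass_two_trans hZ a b c a hab hca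
      rw [← hy1, ← mul_smul, hcomm g y, mul_smul, hga]
  · exact h

theorem kernel_trans (a : Ω) (H : Subgroup G) (hHa : H ≤ stabilizer G a)
    (hHcard : Nat.card H + 1 = Fintype.card Ω)
    (hHfix : ∀ u ∈ H, u ≠ 1 → ∀ c : Ω, u • c = c → c = a) {c d : Ω} (hc : c ≠ a) (hd : d ≠ a) :
    ∃ h ∈ H, h • c = d := by
  classical
  let X := {b : Ω // b ≠ a}
  have hXcard : Nat.card X = Nat.card H := by
    have h1 : Fintype.card X = Fintype.card Ω - 1 := by
      simp [X]
    rw [Nat.card_eq_fintype_card, h1]
    omega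
  have hstay : ∀ (y : G), y • a = a → ∀ c : Ω, c ≠ a → y • c ≠ a := by
    intro y hy c hc h
    apply hc
    have : y • c = y • a := by rw [h, hy]
    exact MulAction.injective y this
  let f : H → X := fun h => ⟨(h : G) • c, hstay h (hHa h.2) c hc⟩
  have hf : Function.Injective f := by
    intro h1 h2 h12
    have h3 : (h1 : G) • c = (h2 : G) • c := congrArg Subtype.val h12
    by_contra hne
    have hne' : (h2 : G)⁻¹ * h1 ≠ 1 := by
      intro h
      apply hne
      apply Subtype.ext
      exact (inv_mul_eq_one.mp h).symm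
    apply hc
    apply hHfix _ (H.mul_mem (H.inv_mem h2.2) h1.2) hne'
    rw [mul_smul, h3, inv_smul_smul]
  have hb := hf.bijective_of_nat_card_le hXcard.le
  obtain ⟨h, hh⟩ := hb.2 ⟨d, hd⟩
  exact ⟨h, h.2, congrArg Subtype.val hh⟩

theorem zass_crux (hZ : IsZassenhausGroup G Ω) [IsSimpleGroup G] {a b : Ω} (hab : a ≠ b)
    (hodd : Odd (Nat.card ↥(stabilizer G a ⊓ stabilizer G b : Subgroup G)))
    (f : G → ℂ) (hf1 : f 1 = 1)
    (hfmul : ∀ x y : G, x • a = a → y • a = a → f (x * y) = f x * f y)
    (hinv : ∀ r z : G, r • a = a → r • b = b → z • a = b → z • b = a → f (z * r * z⁻¹) = f r) :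
    ∀ r : G, r • a = a → r • b = b → f r = 1 := by
  classical
  haveI := Fintype.ofFinite G
  set E : Subgroup G := stabilizer G a ⊓ stabilizer G b with hE
  have hmemE : ∀ x : G, x ∈ E ↔ x • a = a ∧ x • b = b := fun x => Iff.rfl
  have hinvA : ∀ x : G, x • a = a → x⁻¹ • a = a := fun x hx => by rw [inv_smul_eq_iff, hx]
  have hfinv : ∀ x : G, x • a = a → f x⁻¹ * f x = 1 := by
    intro x hx
    rw [← hfmul _ _ (hinvA x hx) hx, inv_mul_cancel, hf1]
  let K : Subgroup E :=
    { carrier := {r | f (r : G) = 1}
      mul_mem' := by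
        intro x y hx hy
        simp only [Set.mem_setOf_eq] at hx hy ⊢
        rw [Subgroup.coe_mul, hfmul _ _ x.2.1 y.2.1, hx, hy, one_mul]
      one_mem' := by simpa using hf1
      inv_mem' := by
        intro x hx
        simp only [Set.mem_setOf_eq] at hx ⊢
        have := hfinv x x.2.1
        rw [hx, mul_one] at this
        simpa using this }
  have hK : K = ⊤ := by
    apply top_of_sylow_le
    intro p hp S
    haveI := Fact.mk hp
    by_cases hS : (S : Subgroup E) = ⊥
    · rw [hS]; exact bot_le
    obtain ⟨r0, hr01⟩ := (Subgroup.ne_bot_iff_exists_ne_one).mp hS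
    have hr01' : ((r0 : E) : G) ≠ 1 := fun h => hr01 (Subtype.ext (Subtype.ext h))
    have hpE : p ∣ Nat.card E := by
      obtain ⟨k, hk⟩ := S.isPGroup' r0
      have h1 : orderOf r0 ∣ p ^ k := orderOf_dvd_of_pow_eq_one hk
      obtain ⟨j, _, hj⟩ := (Nat.dvd_prime_pow hp).mp h1
      have hj0 : j ≠ 0 := by
        rintro rfl
        rw [pow_zero, orderOf_eq_one_iff] at hj
        exact hr01 hj
      have h2 : p ∣ orderOf r0 := by rw [hj]; exact dvd_pow_self p hj0
      have h3 : orderOf r0 ∣ Nat.card S := orderOf_dvd_natCard r0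
      exact h2.trans (h3.trans (Subgroup.card_subgroup_dvd_card _))
    have hp2 : p ≠ 2 := by
      rintro rfl
      exact (Nat.not_even_iff_odd.mpr hodd) (even_iff_two_dvd.mpr hpE)
    set R : Subgroup G := (S : Subgroup E).map E.subtype with hR
    have hRE : R ≤ E := Subgroup.map_subtype_le _
    have hRp : IsPGroup p R := S.isPGroup'.map E.subtype
    have hfix : fixedPoints R Ω = {a, b} := by
      ext c
      constructor
      · intro hc
        have h1 : ((r0 : E) : G) • c = c := hc ⟨((r0 : E) : G), Subgroup.mem_map_of_mem _ r0.2⟩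
        by_contra hne
        simp only [Set.mem_insert_iff, Set.mem_singleton_iff, not_or] at hne
        exact hr01' (zass_no_three hZ _ hab (Ne.symm hne.2) (Ne.symm hne.1) r0.1.2.1 r0.1.2.2 h1)
      · intro hc g
        have hg : (g : G) ∈ E := hRE g.2
        rcases hc with rfl | hc
        · exact hg.1
        · rw [Set.mem_singleton_iff] at hc
          subst hc
          exact hg.2
    have hmod : Fintype.card Ω ≡ 2 [MOD p] := by
      have h1 := hRp.card_modEq_card_fixedPoints Ω
      rw [hfix, Nat.card_coe_set_eq, Set.ncard_pair hab, Nat.card_eq_fintype_card] at h1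
      exact h1
    have hN2 : 2 ≤ Fintype.card Ω := by
      have : Nontrivial Ω := ⟨a, b, hab⟩
      exact Fintype.one_lt_card
    have hpN : ¬ p ∣ Fintype.card Ω := by
      intro h
      have h2 : p ∣ 2 := (hmod.dvd_iff dvd_rfl).mp h
      exact hp2 ((Nat.prime_dvd_prime_iff_eq hp Nat.prime_two).mp h2)
    have hpN1 : ¬ p ∣ Fintype.card Ω - 1 := by
      intro h
      have h1 : Fintype.card Ω - 1 + 1 ≡ 1 + 1 [MOD p] := by
        rw [Nat.sub_add_cancel (by omega)]
        exact hmod
      have h2 : Fintype.card Ω - 1 ≡ 1 [MOD p] := Nat.ModEq.add_right_cancel' 1 h1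
      have h3 : p ∣ 1 := (h2.dvd_iff dvd_rfl).mp h
      exact hp.one_lt.ne' (Nat.dvd_one.mp h3)
    have hRi : ¬ p ∣ R.index := by
      have h1 := Subgroup.card_mul_index R
      have h2 : Nat.card R = Nat.card (S : Subgroup E) := Subgroup.card_subtype E _
      have h3 := Subgroup.card_mul_index (S : Subgroup E)
      have h4 := card_G hZ hab
      have h5 : R.index = Fintype.card Ω * ((Fintype.card Ω - 1) * (S : Subgroup E).index) := by
        have hpos : 0 < Nat.card (S : Subgroup E) := Nat.card_pos
        apply Nat.eq_of_mul_eq_mul_left hpos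
        rw [← h2, h1, Nat.card_eq_fintype_card (α := G), h4, h2]
        rw [← hE, ← h3]
        ring
      rw [h5]
      intro h6
      rcases (Nat.Prime.dvd_mul hp).mp h6 with h7 | h7
      · exact hpN h7
      rcases (Nat.Prime.dvd_mul hp).mp h7 with h8 | h8
      · exact hpN1 h8
      · exact S.not_dvd_index h8
    set D : Subgroup G := R ⊓ K.map E.subtype with hD
    have hfoc : ∀ r ∈ R, ∀ z : G, z * r * z⁻¹ ∈ R → r⁻¹ * (z * r * z⁻¹) ∈ D := by
      intro r hr z hz
      have hrE := hRE hr
      have hyE := hRE hz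
      have hfy : f (z * r * z⁻¹) = f r := by
        by_cases hr1 : r = 1
        · subst hr1; simp
        have hy1 : z * r * z⁻¹ ≠ 1 := by
          intro h
          apply hr1
          have : r = z⁻¹ * (z * r * z⁻¹) * z := by group
          rw [this, h]; group
        have hfa : (z * r * z⁻¹) • (z • a) = z • a := by
          rw [mul_smul, mul_smul, inv_smul_smul, hrE.1]
        have hfb : (z * r * z⁻¹) • (z • b) = z • b := by
          rw [mul_smul, mul_smul, inv_smul_smul, hrE.2]
        have hne : z • a ≠ z • b := fun h => hab (MulAction.injective z h)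
        have hza : z • a = a ∨ z • a = b := by
          by_contra hcon
          push Not at hcon
          exact hy1 (zass_no_three hZ _ hab (Ne.symm hcon.2) (Ne.symm hcon.1) hyE.1 hyE.2 hfa)
        have hzb : z • b = a ∨ z • b = b := by
          by_contra hcon
          push Not at hcon
          exact hy1 (zass_no_three hZ _ hab (Ne.symm hcon.2) (Ne.symm hcon.1) hyE.1 hyE.2 hfb)
        rcases hza with h1 | h1 <;> rcases hzb with h2 | h2
        · exact absurd (h1.trans h2.symm) hne
        · -- z fixes a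
          have h3 := hfmul z r h1 hrE.1
          have h4 := hfmul (z * r) z⁻¹ (by rw [mul_smul, hrE.1, h1]) (hinvA z h1)
          rw [h4, h3, mul_comm (f z), mul_assoc]
          have h5 := hfinv z h1
          rw [mul_comm (f z) (f z⁻¹), h5, mul_one]
        · exact hinv r z hrE.1 hrE.2 h1 h2
        · exact absurd (h1.trans h2.symm) hne
      refine ⟨R.mul_mem (R.inv_mem hr) hz, ?_⟩
      refine ⟨⟨r⁻¹ * (z * r * z⁻¹), E.mul_mem (E.inv_mem hrE) hyE⟩, ?_, rfl⟩
      show f (r⁻¹ * (z * r * z⁻¹)) = 1
      rw [hfmul _ _ (hinvA r hrE.1) hyE.1, hfy]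
      exact hfinv r hrE.1
    have hfinal := H09.focal_type (p := p) R D hRp hRi inf_le_left hfoc
    rw [zass_commutator_top hZ hab, inf_top_eq] at hfinal
    intro x hx
    have h1 : (x : G) ∈ R := Subgroup.mem_map_of_mem _ hx
    obtain ⟨y, hy, hyx⟩ := (hfinal h1).2
    have : y = x := Subtype.ext hyx
    rw [← this]
    exact hy
  intro r hra hrb
  have : (⟨r, hra, hrb⟩ : E) ∈ K := by rw [hK]; exact Subgroup.mem_top _
  exact this

end Cfsg.Agent.H04.ZC
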