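import Cfsg.Agent.Lib.H04.ZassInd
import Mathlib

set_option autoImplicit false
set_option linter.style.haveILetI false
set_option linter.unusedSectionVars false
set_option linter.unusedVariables false

namespace Cfsg.Agent.H04.ZC

open Cfsg MulAction

variable {G Ω : Type*} [Group G] [Finite G] [MulAction G Ω] [Fintype Ω]

theorem odd_orderOf_of_fix (hZ : IsZassenhausGroup G Ω) {a b : Ω} (hab : a ≠ b)
    (hodd : Odd (Nat.card ↥(stabilizer G a ⊓ stabilizer G b : Subgroup G)))
    {x : G} {c d : Ω} (hcd : c ≠ d) (hxc : x • c = c) (hxd : x • d = d) : Odd (orderOf x) := by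
  classical
  haveI := Fintype.ofFinite G
  have h1 : orderOf x ∣ Nat.card ↥(stabilizer G c ⊓ stabilizer G d : Subgroup G) := by
    have h2 : x ∈ (stabilizer G c ⊓ stabilizer G d : Subgroup G) := ⟨hxc, hxd⟩
    exact Subgroup.orderOf_dvd_natCard _ h2
  rw [stab_card_eq hZ hab hcd] at h1
  exact Odd.of_dvd_nat hodd h1

theorem not_inv_fix_two (hZ : IsZassenhausGroup G Ω) {a b : Ω} (hab : a ≠ b)
    (hodd : Odd (Nat.card ↥(stabilizer G a ⊓ stabilizer G b : Subgroup G)))
    {x : G} (hx : orderOf x = 2) {c d : Ω} (hcd : c ≠ d) (hxc : x • c = c) (hxd : x • d = d) : False := by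
  have := odd_orderOf_of_fix hZ hab hodd hcd hxc hxd
  rw [hx] at this
  exact absurd this (by decide)

theorem inv_eq_self_of_two {x : G} (hx : orderOf x = 2) : x⁻¹ = x := by
  have h1 : x ^ 2 = 1 := by rw [← hx]; exact pow_orderOf_eq_one x
  rw [inv_eq_iff_mul_eq_one, ← sq, h1]

theorem inv_swap {x : G} (hx : orderOf x = 2) {c d : Ω} (h : x • c = d) : x • d = c := by
  have h1 : x ^ 2 = 1 := by rw [← hx]; exact pow_orderOf_eq_one x
  rw [← h, ← mul_smul, ← sq, h1, one_smul]

theorem exists_inv_swap (hZ : IsZassenhausGroup G Ω) {a b : Ω} (hab : a ≠ b)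
    (hodd : Odd (Nat.card ↥(stabilizer G a ⊓ stabilizer G b : Subgroup G))) :
    ∃ t : G, orderOf t = 2 ∧ t • a = b ∧ t • b = a := by
  obtain ⟨z, hza, hzb⟩ := zass_two_trans hZ a b b a hab hab.symm
  have hz2a : (z ^ 2) • a = a := by rw [sq, mul_smul, hza, hzb]
  have hz2b : (z ^ 2) • b = b := by rw [sq, mul_smul, hzb, hza]
  have hm := odd_orderOf_of_fix hZ hab hodd hab hz2a hz2b
  set m := orderOf (z ^ 2) with hmdef
  obtain ⟨k, hk⟩ := hm
  have hpow : ∀ n : ℕ, (z ^ (2 * n)) • a = a ∧ (z ^ (2 * n)) • b = b := by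
    intro n
    induction n with
    | zero => simp
    | succ n ih =>
      rw [Nat.mul_succ, pow_add, mul_smul, mul_smul, hz2a, hz2b]
      exact ih
  have hta : (z ^ m) • a = b := by
    rw [hk, pow_succ, mul_smul, hza]
    exact (hpow k).2
  have htb : (z ^ m) • b = a := by
    rw [hk, pow_succ, mul_smul, hzb]
    exact (hpow k).1
  refine ⟨z ^ m, ?_, hta, htb⟩
  apply orderOf_eq_prime
  · rw [← pow_mul, mul_comm, pow_mul, hmdef, pow_orderOf_eq_one]
  · intro h
    rw [h, one_smul] at hta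
    exact hab hta

theorem conj_of_swap (hZ : IsZassenhausGroup G Ω) {a b : Ω} (hab : a ≠ b)
    (hodd : Odd (Nat.card ↥(stabilizer G a ⊓ stabilizer G b : Subgroup G)))
    {t t' : G} (ht : orderOf t = 2) (ht' : orderOf t' = 2) (hta : t • a = b) (ht'a : t' • a = b) :
    ∃ u : G, u • a = a ∧ u • b = b ∧ u * t * u⁻¹ = t' := by
  have htb := inv_swap ht hta
  have ht'b := inv_swap ht' ht'a
  have hti := inv_eq_self_of_two ht
  have ht'i := inv_eq_self_of_two ht'
  set w := t * t' with hw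
  have hwa : w • a = a := by rw [hw, mul_smul, ht'a, htb]
  have hwb : w • b = b := by rw [hw, mul_smul, ht'b, hta]
  obtain ⟨k, hk⟩ := odd_orderOf_of_fix hZ hab hodd hab hwa hwb
  have hwinv : t * w * t⁻¹ = w⁻¹ := by
    rw [hw, hti, mul_inv_rev, ht'i, hti]
    have h1 : t * t = 1 := by rw [← sq, ← ht]; exact pow_orderOf_eq_one t
    rw [← mul_assoc, h1, one_mul]
  set v := w⁻¹ ^ (k + 1) with hv
  have hva : w⁻¹ • a = a := by rw [inv_smul_eq_iff, hwa]
  have hvb : w⁻¹ • b = b := by rw [inv_smul_eq_iff, hwb]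
  have hpow : ∀ n : ℕ, (w⁻¹ ^ n) • a = a ∧ (w⁻¹ ^ n) • b = b := by
    intro n
    induction n with
    | zero => simp
    | succ n ih =>
      rw [pow_succ, mul_smul, mul_smul, hva, hvb]
      exact ih
  have hv2 : v * v = w⁻¹ := by
    rw [hv, ← pow_add]
    have h1 : w⁻¹ ^ (k + 1 + (k + 1)) = w⁻¹ ^ (2 * k + 1) * w⁻¹ := by
      rw [← pow_succ]; congr 1; ring
    rw [h1, ← hk, inv_pow, pow_orderOf_eq_one]
    simp
  have hconj : t * v⁻¹ * t⁻¹ = v := by
    have h3 : v⁻¹ = w ^ (k + 1) := by rw [hv, inv_pow, inv_inv]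
    rw [h3, ← conj_pow, hwinv]
  have h2 : t * v⁻¹ = v * t := by
    rw [← hconj]
    rw [inv_mul_cancel_right]
    rw [hconj]
  refine ⟨v, (hpow _).1, (hpow _).2, ?_⟩
  rw [mul_assoc, h2, ← mul_assoc, hv2, hw, mul_inv_rev, ht'i, hti, mul_assoc]
  have h1 : t * t = 1 := by rw [← sq, ← ht]; exact pow_orderOf_eq_one t
  rw [h1, mul_one]

theorem all_inv_conj (hZ : IsZassenhausGroup G Ω) {a b : Ω} (hab : a ≠ b)
    (hodd : Odd (Nat.card ↥(stabilizer G a ⊓ stabilizer G b : Subgroup G)))
    {x y : G} (hx : orderOf x = 2) (hy : orderOf y = 2) : IsConj x y := by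
  haveI := hZ.1
  have hmove : ∀ x : G, orderOf x = 2 → ∃ g : G, orderOf (g * x * g⁻¹) = 2 ∧ (g * x * g⁻¹) • a = b := by
    intro x hx
    have hx1 : x ≠ 1 := by
      rintro rfl
      rw [orderOf_one] at hx
      omega
    obtain ⟨c, hc⟩ : ∃ c : Ω, x • c ≠ c := by
      by_contra hcon
      push Not at hcon
      apply hx1
      apply FaithfulSMul.eq_of_smul_eq_smul (α := Ω)
      intro c
      rw [hcon c, one_smul]
    obtain ⟨g, hg1, hg2⟩ := zass_two_trans hZ c (x • c) a b (Ne.symm hc) hab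
    refine ⟨g, ?_, ?_⟩
    · rw [← MulAut.conj_apply, MulEquiv.orderOf_eq]
      exact hx
    · rw [← hg1, mul_smul, mul_smul, inv_smul_smul, hg2]
  obtain ⟨g, hg1, hg2⟩ := hmove x hx
  obtain ⟨g', hg'1, hg'2⟩ := hmove y hy
  obtain ⟨u, _, _, hu⟩ := conj_of_swap hZ hab hodd hg1 hg'1 hg2 hg'2
  rw [isConj_iff]
  refine ⟨g'⁻¹ * u * g, ?_⟩
  have : g'⁻¹ * (u * (g * x * g⁻¹) * u⁻¹) * g' = y := by
    rw [hu]; group
  rw [← this]
  group

open Finset in
open scoped Classical in
theorem card_inv_swap [Fintype G] (hZ : IsZassenhausGroup G Ω) {a b : Ω} (hab : a ≠ b)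
    (hodd : Odd (Nat.card ↥(stabilizer G a ⊓ stabilizer G b : Subgroup G)))
    {t₀ : G} (ht₀ : orderOf t₀ = 2) (hta : t₀ • a = b)
    (hC : ∀ u : G, u • a = a → u • b = b → u * t₀ = t₀ * u → u = 1) {c d : Ω} (hcd : c ≠ d) :
    ((univ.filter (fun x : G => orderOf x = 2)).filter (fun x => x • c = d)).card
      = Nat.card ↥(stabilizer G a ⊓ stabilizer G b : Subgroup G) := by
  obtain ⟨g, hg1, hg2⟩ := zass_two_trans hZ a b c d hab hcd
  rw [Nat.card_eq_fintype_card, ← Finset.card_univ]
  symm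
  apply Finset.card_bij (fun (u : ↥(stabilizer G a ⊓ stabilizer G b : Subgroup G)) _ => g * ((u : G) * t₀ * (u : G)⁻¹) * g⁻¹)
  · intro u _
    have hua : (u : G) • a = a := u.2.1
    have hub : (u : G) • b = b := u.2.2
    have hui : (u : G)⁻¹ • a = a := by rw [inv_smul_eq_iff, hua]
    simp only [mem_filter, mem_univ, true_and]
    constructor
    · rw [← MulAut.conj_apply, MulEquiv.orderOf_eq, ← MulAut.conj_apply, MulEquiv.orderOf_eq]
      exact ht₀
    · rw [← hg1]
      simp only [mul_smul, inv_smul_smul, hui, hta, hub, hg2]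
  · intro u _ v _ huv
    have h1 : (u : G) * t₀ * (u : G)⁻¹ = (v : G) * t₀ * (v : G)⁻¹ := by
      have := congrArg (fun z => g⁻¹ * z * g) huv
      simpa [mul_assoc] using this
    have h2 : ((v : G)⁻¹ * (u : G)) * t₀ = t₀ * ((v : G)⁻¹ * (u : G)) := by
      have h3 : (u : G) * t₀ = (v : G) * t₀ * (v : G)⁻¹ * (u : G) := by
        rw [← h1]; group
      calc ((v : G)⁻¹ * (u : G)) * t₀ = (v : G)⁻¹ * ((u : G) * t₀) := by group
        _ = _ := by rw [h3]; group
    have hua : (u : G) • a = a := u.2.1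
    have hub : (u : G) • b = b := u.2.2
    have hva : (v : G) • a = a := v.2.1
    have hvb : (v : G) • b = b := v.2.2
    have h4 := hC ((v : G)⁻¹ * (u : G)) (by rw [mul_smul, hua, inv_smul_eq_iff, hva])
      (by rw [mul_smul, hub, inv_smul_eq_iff, hvb]) h2
    apply Subtype.ext
    exact (inv_mul_eq_one.mp h4).symm
  · intro x hx
    simp only [mem_filter, mem_univ, true_and] at hx
    have hx1 : orderOf (g⁻¹ * x * g) = 2 := by
      have : g⁻¹ * x * g = MulAut.conj g⁻¹ x := by simp [MulAut.conj_apply]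
      rw [this, MulEquiv.orderOf_eq]
      exact hx.1
    have hx2 : (g⁻¹ * x * g) • a = b := by
      simp only [mul_smul, hg1, hx.2, inv_smul_eq_iff, hg2]
    obtain ⟨u, hua, hub, hu⟩ := conj_of_swap hZ hab hodd ht₀ hx1 hta hx2
    refine ⟨⟨u, hua, hub⟩, mem_univ _, ?_⟩
    show g * (u * t₀ * u⁻¹) * g⁻¹ = x
    rw [hu]; group

open Finset in
open scoped Classical in
theorem count_inv [Fintype G] (hZ : IsZassenhausGroup G Ω) {a b : Ω} (hab : a ≠ b)
    (hodd : Odd (Nat.card ↥(stabilizer G a ⊓ stabilizer G b : Subgroup G)))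
    {t₀ : G} (ht₀ : orderOf t₀ = 2) (hta : t₀ • a = b)
    (hC : ∀ u : G, u • a = a → u • b = b → u * t₀ = t₀ * u → u = 1)
    (f : ℕ) (hf : ∀ x : G, orderOf x = 2 → fx (Ω := Ω) x = f) :
    Nat.card {x : G // orderOf x = 2} * (Fintype.card Ω - f) =
      Fintype.card Ω * ((Fintype.card Ω - 1) * Nat.card ↥(stabilizer G a ⊓ stabilizer G b : Subgroup G)) := by
  set e := Nat.card ↥(stabilizer G a ⊓ stabilizer G b : Subgroup G) with he
  set Inv := univ.filter (fun x : G => orderOf x = 2) with hInv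
  have hc1 : Nat.card {x : G // orderOf x = 2} = Inv.card := by
    rw [Nat.card_eq_fintype_card, Fintype.card_subtype]
  have h1 : ∑ x ∈ Inv, (univ.filter (fun c : Ω => x • c ≠ c)).card = Inv.card * (Fintype.card Ω - f) := by
    rw [Finset.sum_congr rfl (g := fun _ => Fintype.card Ω - f)]
    · simp
    · intro x hx
      have hx2 : orderOf x = 2 := (mem_filter.mp hx).2
      rw [← hf x hx2, fx, filter_not, card_sdiff_of_subset (subset_univ _)]
      simp
  have h2 : ∑ x ∈ Inv, (univ.filter (fun c : Ω => x • c ≠ c)).card =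
      ∑ c : Ω, (Inv.filter (fun x => x • c ≠ c)).card := by
    simp only [Finset.card_filter]
    rw [Finset.sum_comm]
  have h3 : ∀ c : Ω, (Inv.filter (fun x => x • c ≠ c)).card = (Fintype.card Ω - 1) * e := by
    intro c
    rw [Finset.card_eq_sum_card_fiberwise (f := fun x : G => x • c) (t := univ.erase c)]
    · rw [Finset.sum_congr rfl (g := fun _ => e)]
      · simp
      · intro d hd
        have hcd : c ≠ d := Ne.symm (Finset.ne_of_mem_erase hd)
        refine Eq.trans ?_ (card_inv_swap hZ hab hodd ht₀ hta hC hcd)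
        congr 1
        ext x
        simp only [mem_filter]
        constructor
        · rintro ⟨⟨h1, h2⟩, h3⟩
          exact ⟨mem_filter.mp h1, h3⟩
        · rintro ⟨h1, h3⟩
          refine ⟨⟨mem_filter.mpr h1, ?_⟩, h3⟩
          rw [h3]
          exact hcd.symm
    · intro x hx
      have := (mem_filter.mp hx).2
      simp only [coe_erase, coe_univ, Set.mem_sdiff, Set.mem_univ, Set.mem_singleton_iff, true_and]
      exact this
  rw [hc1, ← h1, h2, Finset.sum_congr rfl (fun c _ => h3 c)]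
  simp

open Finset in
open scoped Classical in
theorem fx_parity {x : G} (hx : orderOf x = 2) : Fintype.card Ω ≡ fx (Ω := Ω) x [MOD 2] := by
  have h1 : x ^ 2 = 1 := by rw [← hx]; exact pow_orderOf_eq_one x
  let f : Function.End Ω := fun c => x • c
  have hf : f ^ 2 ^ 1 = 1 := by
    funext c
    show (f * f) c = c
    show x • x • c = c
    rw [← mul_smul, ← sq, h1, one_smul]
  have h2 := Equiv.Perm.card_fixedPoints_modEq hf (p := 2)
  have h3 : Fintype.card (f.fixedPoints) = fx (Ω := Ω) x := by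
    rw [fx, Fintype.card_subtype]
    congr 1
  rw [h3] at h2
  exact h2

open Finset in
open scoped Classical in
/-- In the case of an even number of moved points etc.: an involution fixes one point when `N` is odd. -/
theorem inv_fx_of_odd (hZ : IsZassenhausGroup G Ω) {a b : Ω} (hab : a ≠ b)
    {x : G} (hx : orderOf x = 2) (hN : Odd (Fintype.card Ω)) : fx (Ω := Ω) x = 1 := by
  have hx1 : x ≠ 1 := by
    rintro rfl
    rw [orderOf_one] at hx
    omega
  haveI := Fintype.ofFinite G
  have h1 := fx_le_two hZ hx1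
  have h2 := fx_parity (Ω := Ω) hx
  obtain ⟨k, hk⟩ := hN
  have h3 : fx (Ω := Ω) x % 2 = 1 := by
    have := h2.symm
    rw [Nat.ModEq] at this
    omega
  omega

open Finset in
open scoped Classical in
theorem inv_fx_of_even (hZ : IsZassenhausGroup G Ω) {a b : Ω} (hab : a ≠ b)
    (hodd : Odd (Nat.card ↥(stabilizer G a ⊓ stabilizer G b : Subgroup G)))
    {x : G} (hx : orderOf x = 2) (hN : Even (Fintype.card Ω)) : fx (Ω := Ω) x = 0 := by
  have hx1 : x ≠ 1 := by
    rintro rfl
    rw [orderOf_one] at hx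
    omega
  haveI := Fintype.ofFinite G
  have h1 := fx_le_two hZ hx1
  have h2 := fx_parity (Ω := Ω) hx
  obtain ⟨k, hk⟩ := hN
  have h3 : fx (Ω := Ω) x % 2 = 0 := by
    have := h2.symm
    rw [Nat.ModEq] at this
    omega
  by_contra h0
  have h4 : fx (Ω := Ω) x = 2 := by omega
  obtain ⟨c, d, hcd, h5⟩ := Finset.card_eq_two.mp h4
  have hc : c ∈ univ.filter (fun c : Ω => x • c = c) := by rw [h5]; simp
  have hd : d ∈ univ.filter (fun c : Ω => x • c = c) := by rw [h5]; simp
  exact not_inv_fix_two hZ hab hodd hx hcd (mem_filter.mp hc).2 (mem_filter.mp hd).2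

open Finset in
open scoped Classical in
/-- The even case of the count. -/
theorem count_inv_odd_N [Fintype G] (hZ : IsZassenhausGroup G Ω) {a b : Ω} (hab : a ≠ b)
    (hodd : Odd (Nat.card ↥(stabilizer G a ⊓ stabilizer G b : Subgroup G)))
    (hN : Odd (Fintype.card Ω)) :
    Nat.card {x : G // orderOf x = 2} =
      Fintype.card Ω * Nat.card ↥(stabilizer G a ⊓ stabilizer G b : Subgroup G) := by
  obtain ⟨t₀, ht₀, hta, htb⟩ := exists_inv_swap hZ hab hodd
  have hf1 := inv_fx_of_odd hZ hab ht₀ hN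
  obtain ⟨c, hc⟩ := Finset.card_eq_one.mp hf1
  have hc' : t₀ • c = c := by
    have : c ∈ univ.filter (fun c : Ω => t₀ • c = c) := by rw [hc]; simp
    exact (mem_filter.mp this).2
  have hC : ∀ u : G, u • a = a → u • b = b → u * t₀ = t₀ * u → u = 1 := by
    intro u hua hub hcomm
    have h1 : u • c ∈ univ.filter (fun c : Ω => t₀ • c = c) := by
      simp only [mem_filter, mem_univ, true_and]
      rw [← mul_smul, ← hcomm, mul_smul, hc']
    rw [hc, mem_singleton] at h1
    have hca : c ≠ a := by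
      rintro rfl
      rw [hta] at hc'
      exact hab hc'.symm
    have hcb : c ≠ b := by
      rintro rfl
      rw [htb] at hc'
      exact hab hc'
    exact zass_no_three hZ u hab (Ne.symm hcb) (Ne.symm hca) hua hub h1
  have h1 := count_inv hZ hab hodd ht₀ hta hC 1 (fun x hx => inv_fx_of_odd hZ hab hx hN)
  have hN3 : 0 < Fintype.card Ω - 1 := by
    obtain ⟨k, hk⟩ := hN
    have : Nontrivial Ω := ⟨a, b, hab⟩
    have := Fintype.one_lt_card (α := Ω)
    omega
  apply Nat.eq_of_mul_eq_mul_right hN3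
  rw [h1]
  ring

open Finset in
open scoped Classical in
/-- The number of elements of `G_a` having `a` as unique fixed point is `N - 2`. -/
theorem card_unique_fix [Fintype G] (hZ : IsZassenhausGroup G Ω) {a b : Ω} (hab : a ≠ b) :
    ((univ.filter (fun g : G => g • a = a)).filter (fun g => g ≠ 1 ∧ fx (Ω := Ω) g = 1)).card + 2
      = Fintype.card Ω := by
  set A := univ.filter (fun g : G => g • a = a) with hA
  set e := Nat.card ↥(stabilizer G a ⊓ stabilizer G b : Subgroup G) with he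
  have hN : 2 ≤ Fintype.card Ω := by
    have : Nontrivial Ω := ⟨a, b, hab⟩
    exact Fintype.one_lt_card
  have hAc : A.card = (Fintype.card Ω - 1) * e := T1_eq hZ hab a
  have h1 : ∑ g ∈ A, fx (Ω := Ω) g = 2 * ((Fintype.card Ω - 1) * e) := by
    have h2 : ∑ g ∈ A, fx (Ω := Ω) g = ∑ c : Ω, (A.filter (fun g => g • c = c)).card := by
      simp only [fx, Finset.card_filter]
      rw [Finset.sum_comm]
    rw [h2, ← Finset.add_sum_erase _ _ (mem_univ a)]
    have h3 : (A.filter (fun g => g • a = a)).card = (Fintype.card Ω - 1) * e := by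
      rw [← hAc, hA, filter_filter]
      simp
    rw [h3]
    have h4 : ∀ c ∈ (univ : Finset Ω).erase a, (A.filter (fun g => g • c = c)).card = e := by
      intro c hc
      have hac : a ≠ c := Ne.symm (Finset.ne_of_mem_erase hc)
      have h5 := S2_eq hZ hac hac (G := G)
      rw [stab_card_eq hZ hab hac] at h5
      rw [← he] at h5
      rw [← h5, S2, hA, filter_filter]
    rw [Finset.sum_congr rfl h4]
    simp
    ring
  have h5 : ∀ g ∈ A, (fx (Ω := Ω) g : ℤ) - 2 = (if g = 1 then (Fintype.card Ω : ℤ) - 2 else 0) -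
      (if g ≠ 1 ∧ fx (Ω := Ω) g = 1 then 1 else 0) := by
    intro g hg
    by_cases hg1 : g = 1
    · subst hg1
      simp [fx_one]
    · have h6 := fx_le_two hZ hg1
      have h7 : 1 ≤ fx (Ω := Ω) g := by
        apply Finset.card_pos.mpr
        exact ⟨a, by simpa using (mem_filter.mp hg).2⟩
      have h8 : fx (Ω := Ω) g = 1 ∨ fx (Ω := Ω) g = 2 := by omega
      simp only [hg1, if_false]
      rcases h8 with h8 | h8 <;> simp [h8, hg1]
  have h6 : ∑ g ∈ A, ((fx (Ω := Ω) g : ℤ) - 2) = ((Fintype.card Ω : ℤ) - 2) -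
      ((A.filter (fun g => g ≠ 1 ∧ fx (Ω := Ω) g = 1)).card : ℤ) := by
    rw [Finset.sum_congr rfl h5, Finset.sum_sub_distrib, Finset.sum_ite_eq']
    have h1A : (1 : G) ∈ A := by simp [hA]
    rw [if_pos h1A, Finset.card_filter]
    push_cast
    rfl
  have h7 : ∑ g ∈ A, ((fx (Ω := Ω) g : ℤ) - 2) = 0 := by
    rw [Finset.sum_sub_distrib]
    have h8 : ∑ g ∈ A, (fx (Ω := Ω) g : ℤ) = 2 * (A.card : ℤ) := by
      have := h1
      rw [← hAc] at this
      exact_mod_cast this
    rw [h8]
    simp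
    ring
  rw [h7] at h6
  have h8 : ((A.filter (fun g => g ≠ 1 ∧ fx (Ω := Ω) g = 1)).card : ℤ) + 2 = (Fintype.card Ω : ℤ) := by
    linarith
  exact_mod_cast h8

open Finset in
open scoped Classical in
theorem mem_kernel_of_fx [Fintype G] (hZ : IsZassenhausGroup G Ω) {a b : Ω} (hab : a ≠ b)
    (H : Subgroup G) (hHa : H ≤ stabilizer G a) (hHcard : Nat.card H + 1 = Fintype.card Ω)
    (hHfix : ∀ u ∈ H, u ≠ 1 → ∀ c : Ω, u • c = c → c = a)
    {y : G} (hya : y • a = a) (hy : ∀ c : Ω, y • c = c → c = a) : y ∈ H := by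
  by_cases hy1 : y = 1
  · rw [hy1]; exact H.one_mem
  set Q := ((univ.filter (fun g : G => g • a = a)).filter (fun g => g ≠ 1 ∧ fx (Ω := Ω) g = 1)) with hQ
  set R := (univ.filter (fun g : G => g ∈ H)).erase 1 with hR
  have hfx : ∀ u : G, u • a = a → (∀ c : Ω, u • c = c → c = a) → fx (Ω := Ω) u = 1 := by
    intro u hua hu
    rw [fx, Finset.card_eq_one]
    refine ⟨a, ?_⟩
    ext c
    simp only [mem_filter, mem_univ, true_and, mem_singleton]
    exact ⟨hu c, fun h => by rw [h]; exact hua⟩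
  have hRQ : R ⊆ Q := by
    intro u hu
    rw [hR, mem_erase, mem_filter] at hu
    simp only [hQ, mem_filter, mem_univ, true_and]
    exact ⟨hHa hu.2.2, hu.1, hfx u (hHa hu.2.2) (hHfix u hu.2.2 hu.1)⟩
  have hcQ := card_unique_fix hZ hab (G := G)
  rw [← hQ] at hcQ
  have hcR : R.card + 1 = Nat.card H := by
    rw [hR, Finset.card_erase_of_mem (by simp [H.one_mem])]
    have h1 : (univ.filter (fun g : G => g ∈ H)).card = Nat.card H := by
      rw [Nat.card_eq_fintype_card, Fintype.card_subtype]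
    have h2 : 0 < Nat.card H := Nat.card_pos
    omega
  have hRQe : R = Q := Finset.eq_of_subset_of_card_le hRQ (by omega)
  have hyQ : y ∈ Q := by
    simp only [hQ, mem_filter, mem_univ, true_and]
    exact ⟨hya, hy1, hfx y hya hy⟩
  rw [← hRQe, hR, mem_erase, mem_filter] at hyQ
  exact hyQ.2.2

end Cfsg.Agent.H04.ZC
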