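import Cfsg.Agent.Lib.H04.ZassInv
import Cfsg.Agent.Lib.H01.Frobenius
import Cfsg.Agent.Lib.H06.CNFrob
import Cfsg.Agent.Lib.H19.CyclicSylow
import Mathlib

set_option autoImplicit false
set_option linter.style.haveILetI false
set_option linter.unusedSectionVars false
set_option linter.unusedVariables false

namespace Cfsg.Agent.H04.ZC

open Cfsg MulAction
open scoped Pointwise

theorem mem_zpowers_of_order_prime {C : Type*} [Group C] [Finite C] [IsCyclic C] {p : ℕ} (hp : p.Prime)
    {w v : C} (hw : orderOf w = p) (hv : orderOf v = p) : v ∈ Subgroup.zpowers w := by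
  classical
  haveI := Fintype.ofFinite C
  have h1 := IsCyclic.card_pow_eq_one_le (α := C) hp.pos
  set S := Finset.univ.filter (fun a : C => a ^ p = 1) with hS
  set Z := Finset.univ.filter (fun a : C => a ∈ Subgroup.zpowers w) with hZ
  have hZS : Z ⊆ S := by
    intro z hz
    simp only [hZ, Finset.mem_filter, Finset.mem_univ, true_and] at hz
    obtain ⟨k, rfl⟩ := Subgroup.mem_zpowers_iff.mp hz
    simp only [hS, Finset.mem_filter, Finset.mem_univ, true_and]
    rw [← zpow_natCast, ← zpow_mul, mul_comm, zpow_mul, zpow_natCast, ← hw, pow_orderOf_eq_one, one_zpow]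
  have hZc : Z.card = p := by
    rw [hZ, ← hw, ← Nat.card_zpowers, Nat.card_eq_fintype_card, Fintype.card_subtype]
  have hEq : Z = S := Finset.eq_of_subset_of_card_le hZS (by omega)
  have hvS : v ∈ S := by
    simp only [hS, Finset.mem_filter, Finset.mem_univ, true_and]
    rw [← hv]; exact pow_orderOf_eq_one v
  rw [← hEq] at hvS
  simpa [hZ] using hvS

variable {G Ω : Type*} [Group G] [Finite G] [MulAction G Ω] [Fintype Ω]

/-- The Frobenius kernel exists. -/
theorem exists_kernel (hZ : IsZassenhausGroup G Ω) {a b : Ω} (hab : a ≠ b) :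
    ∃ H : Subgroup G, H ≤ stabilizer G a ∧ Nat.card H + 1 = Fintype.card Ω ∧
      ∀ u ∈ H, u ≠ 1 → ∀ c : Ω, u • c = c → c = a := by
  classical
  haveI := Fintype.ofFinite G
  set A : Subgroup G := stabilizer G a with hA
  set E : Subgroup G := stabilizer G a ⊓ stabilizer G b with hE
  set C : Subgroup A := E.subgroupOf A with hC
  have hmemC : ∀ x : A, x ∈ C ↔ (x : G) • b = b := by
    intro x
    rw [hC, Subgroup.mem_subgroupOf]
    exact ⟨fun h => h.2, fun h => ⟨x.2, h⟩⟩
  have hcomp : IsFrobeniusComplement C := by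
    refine ⟨?_, ?_, ?_⟩
    · intro hbot
      obtain ⟨g, hg1, hga, hgb⟩ := zass_exists_fixing hZ hab
      have h1 : (⟨g, hga⟩ : A) ∈ C := (hmemC _).mpr hgb
      rw [hbot, Subgroup.mem_bot] at h1
      exact hg1 (congrArg Subtype.val h1)
    · intro htop
      obtain ⟨c, hca, hcb⟩ := zass_exists_third hZ a b hab
      obtain ⟨z, hz1, hz2⟩ := zass_two_trans hZ a b a c hab (Ne.symm hca)
      have h1 : (⟨z, hz1⟩ : A) ∈ C := by rw [htop]; exact Subgroup.mem_top _
      have h2 := (hmemC _).mp h1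
      have h3 : z • b = b := h2
      rw [hz2] at h3
      exact hcb h3
    · intro g hg
      rw [eq_bot_iff]
      intro x hx
      rw [Subgroup.mem_inf] at hx
      obtain ⟨hx1, hx2⟩ := hx
      rw [Subgroup.mem_pointwise_smul_iff_inv_smul_mem] at hx2
      have hx3 : ((x : G)) • b = b := (hmemC x).mp hx1
      have hx4 : ((g⁻¹ * x * g : A) : G) • b = b := by
        have h5 := (hmemC _).mp hx2
        simpa [MulAut.smul_def, MulAut.conj_apply] using h5
      have hg2 : (g : G) • b ≠ b := fun h => hg ((hmemC g).mpr h)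
      have hg3 : (g : G) • b ≠ a := by
        intro h
        apply hab.symm
        apply MulAction.injective (g : G)
        show (g : G) • b = (g : G) • a
        rw [h]
        exact (g.2 : (g : G) • a = a).symm
      have hx5 : (x : G) • ((g : G) • b) = (g : G) • b := by
        have h6 : ((g : G)⁻¹ * (x : G) * (g : G)) • b = b := by simpa using hx4
        rw [mul_smul, mul_smul, inv_smul_eq_iff] at h6
        exact h6
      have hx6 : (x : G) = 1 := zass_no_three hZ (x : G) hab (Ne.symm hg2) (Ne.symm hg3) x.2 hx3 hx5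
      rw [Subgroup.mem_bot]
      exact Subtype.ext hx6
  obtain ⟨N, hN, hNn, hNc⟩ := H01.frobenius_theorem C hcomp
  refine ⟨N.map A.subtype, Subgroup.map_subtype_le _, ?_, ?_⟩
  · have h1 : Nat.card (N.map A.subtype) = Nat.card N := Subgroup.card_subtype A N
    have h2 := hNc.card_mul
    have h3 : Nat.card C = Nat.card E := by
      rw [hC]
      apply Nat.card_congr
      exact (Subgroup.subgroupOfEquivOfLe (inf_le_left : E ≤ A)).toEquiv
    have h4 : Nat.card A = (Fintype.card Ω - 1) * Nat.card E := by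
      rw [← T1_eq hZ hab a (G := G), T1, Nat.card_eq_fintype_card, Fintype.card_subtype]
      rfl
    rw [h1]
    have h5 : 0 < Nat.card E := Nat.card_pos
    have h6 : Nat.card N = Fintype.card Ω - 1 := by
      apply Nat.eq_of_mul_eq_mul_right h5
      rw [← h3, h2, h3, h4]
    have h7 : 2 ≤ Fintype.card Ω := by
      have : Nontrivial Ω := ⟨a, b, hab⟩
      exact Fintype.one_lt_card
    omega
  · intro u hu hu1 c hc
    by_contra hca
    obtain ⟨v, hv, rfl⟩ := hu
    have hv1 : v ≠ 1 := by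
      rintro rfl
      exact hu1 rfl
    have h1 : v ∈ frobeniusKernel C := by
      have : v ∈ (N : Set A) := hv
      rwa [hN] at this
    rcases h1 with h1 | h1
    · exact hv1 h1
    · obtain ⟨g, hg1, hg2⟩ := zass_two_trans hZ a b a c hab (Ne.symm hca)
      apply h1 ⟨g, hg1⟩
      rw [Subgroup.mem_pointwise_smul_iff_inv_smul_mem]
      rw [hmemC]
      have h6 : (v : G) • (g • b) = g • b := by rw [hg2]; exact hc
      have h7 : ((MulAut.conj (⟨g, hg1⟩ : A))⁻¹ • v : A) = (⟨g, hg1⟩ : A)⁻¹ * v * ⟨g, hg1⟩ := by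
        simp [MulAut.smul_def, MulAut.conj_apply]
      rw [h7]
      simp only [Subgroup.coe_mul, InvMemClass.coe_inv]
      rw [mul_smul, mul_smul, h6, inv_smul_smul]

/-- Pair preservation. -/
theorem pair_of_conj (hZ : IsZassenhausGroup G Ω) {a b : Ω} (hab : a ≠ b) {z r : G}
    (hra : r • a = a) (hrb : r • b = b) (hr1 : r ≠ 1)
    (hya : (z * r * z⁻¹) • a = a) (hyb : (z * r * z⁻¹) • b = b) :
    (z • a = a ∧ z • b = b) ∨ (z • a = b ∧ z • b = a) := by
  have hy1 : z * r * z⁻¹ ≠ 1 := by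
    intro h
    apply hr1
    have : r = z⁻¹ * (z * r * z⁻¹) * z := by group
    rw [this, h]; group
  have hfa : (z * r * z⁻¹) • (z • a) = z • a := by
    rw [mul_smul, mul_smul, inv_smul_smul, hra]
  have hfb : (z * r * z⁻¹) • (z • b) = z • b := by
    rw [mul_smul, mul_smul, inv_smul_smul, hrb]
  have hne : z • a ≠ z • b := fun h => hab (MulAction.injective z h)
  have hza : z • a = a ∨ z • a = b := by
    by_contra hcon
    push Not at hcon
    exact hy1 (zass_no_three hZ _ hab (Ne.symm hcon.2) (Ne.symm hcon.1) hya hyb hfa)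
  have hzb : z • b = a ∨ z • b = b := by
    by_contra hcon
    push Not at hcon
    exact hy1 (zass_no_three hZ _ hab (Ne.symm hcon.2) (Ne.symm hcon.1) hya hyb hfb)
  rcases hza with h1 | h1 <;> rcases hzb with h2 | h2
  · exact absurd (h1.trans h2.symm) hne
  · exact Or.inl ⟨h1, h2⟩
  · exact Or.inr ⟨h1, h2⟩
  · exact absurd (h1.trans h2.symm) hne

theorem not_dvd_index_sylow (hZ : IsZassenhausGroup G Ω) {a b : Ω} (hab : a ≠ b)
    (hodd : Odd (Nat.card ↥(stabilizer G a ⊓ stabilizer G b : Subgroup G)))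
    (E : Subgroup G) (hE : E = stabilizer G a ⊓ stabilizer G b)
    {p : ℕ} [hp' : Fact p.Prime] (S : Sylow p ↥E)
    (hS : (S : Subgroup ↥E) ≠ ⊥) :
    ¬ p ∣ ((S : Subgroup ↥E).map E.subtype).index := by
  classical
  haveI := Fintype.ofFinite G
  have hp : p.Prime := hp'.out
  rw [← hE] at hodd
  have hmemE : ∀ x : E, (x : G) • a = a ∧ (x : G) • b = b := by
    intro x
    have : (x : G) ∈ (stabilizer G a ⊓ stabilizer G b : Subgroup G) := hE ▸ x.2
    exact ⟨this.1, this.2⟩
  obtain ⟨r0, hr01⟩ := (Subgroup.ne_bot_iff_exists_ne_one).mp hS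
  have hr01' : ((r0 : E) : G) ≠ 1 := fun h => hr01 (Subtype.ext (Subtype.ext h))
  have hpE : p ∣ Nat.card E := by
    obtain ⟨k, hk⟩ := S.isPGroup' r0
    have h1 : orderOf r0 ∣ p ^ k := orderOf_dvd_of_pow_eq_one hk
    obtain ⟨j, _, hj⟩ := (Nat.dvd_prime_pow hp).mp h1
    have hj0 : j ≠ 0 := by
      rintro rfl
      rw [pow_zero, orderOf_eq_one_iff] at hj
      exact hr01 hj
    have h2 : p ∣ orderOf r0 := by rw [hj]; exact dvd_pow_self p hj0
    have h3 : orderOf r0 ∣ Nat.card S := orderOf_dvd_natCard r0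
    exact h2.trans (h3.trans (Subgroup.card_subgroup_dvd_card _))
  have hp2 : p ≠ 2 := by
    rintro rfl
    exact (Nat.not_even_iff_odd.mpr hodd) (even_iff_two_dvd.mpr hpE)
  set R : Subgroup G := (S : Subgroup E).map E.subtype with hR
  have hRE : R ≤ E := Subgroup.map_subtype_le _
  have hRp : IsPGroup p R := S.isPGroup'.map E.subtype
  have hfix : fixedPoints R Ω = {a, b} := by
    ext c
    constructor
    · intro hc
      have h1 : ((r0 : E) : G) • c = c := hc ⟨((r0 : E) : G), Subgroup.mem_map_of_mem _ r0.2⟩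
      by_contra hne
      simp only [Set.mem_insert_iff, Set.mem_singleton_iff, not_or] at hne
      exact hr01' (zass_no_three hZ _ hab (Ne.symm hne.2) (Ne.symm hne.1) (hmemE r0.1).1 (hmemE r0.1).2 h1)
    · intro hc g
      have hg := hmemE ⟨g, hRE g.2⟩
      rcases hc with rfl | hc
      · exact hg.1
      · rw [Set.mem_singleton_iff] at hc
        subst hc
        exact hg.2
  have hmod : Fintype.card Ω ≡ 2 [MOD p] := by
    have h1 := hRp.card_modEq_card_fixedPoints Ω
    rw [hfix, Nat.card_coe_set_eq, Set.ncard_pair hab, Nat.card_eq_fintype_card] at h1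
    exact h1
  have hN2 : 2 ≤ Fintype.card Ω := by
    have : Nontrivial Ω := ⟨a, b, hab⟩
    exact Fintype.one_lt_card
  have hpN : ¬ p ∣ Fintype.card Ω := by
    intro h
    have h2 : p ∣ 2 := (hmod.dvd_iff dvd_rfl).mp h
    exact hp2 ((Nat.prime_dvd_prime_iff_eq hp Nat.prime_two).mp h2)
  have hpN1 : ¬ p ∣ Fintype.card Ω - 1 := by
    intro h
    have h1 : Fintype.card Ω - 1 + 1 ≡ 1 + 1 [MOD p] := by
      rw [Nat.sub_add_cancel (by omega)]
      exact hmod
    have h2 : Fintype.card Ω - 1 ≡ 1 [MOD p] := Nat.ModEq.add_right_cancel' 1 h1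
    have h3 : p ∣ 1 := (h2.dvd_iff dvd_rfl).mp h
    exact hp.one_lt.ne' (Nat.dvd_one.mp h3)
  have h1 := Subgroup.card_mul_index R
  have h2 : Nat.card R = Nat.card (S : Subgroup E) := Subgroup.card_subtype E _
  have h3 := Subgroup.card_mul_index (S : Subgroup E)
  have h4 := card_G hZ hab
  rw [← hE] at h4
  have h5 : R.index = Fintype.card Ω * ((Fintype.card Ω - 1) * (S : Subgroup E).index) := by
    have hpos : 0 < Nat.card (S : Subgroup E) := Nat.card_pos
    apply Nat.eq_of_mul_eq_mul_left hpos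
    rw [← h2, h1, Nat.card_eq_fintype_card (α := G), h4, h2]
    rw [← h3]
    ring
  rw [h5]
  intro h6
  rcases (Nat.Prime.dvd_mul hp).mp h6 with h7 | h7
  · exact hpN h7
  rcases (Nat.Prime.dvd_mul hp).mp h7 with h8 | h8
  · exact hpN1 h8
  · exact S.not_dvd_index h8

theorem zass_crux_E (hZ : IsZassenhausGroup G Ω) [IsSimpleGroup G] {a b : Ω} (hab : a ≠ b)
    (hodd : Odd (Nat.card ↥(stabilizer G a ⊓ stabilizer G b : Subgroup G)))
    (f : G → ℂ) (hf1 : f 1 = 1)
    (hfmul : ∀ x y : G, x ∈ (stabilizer G a ⊓ stabilizer G b : Subgroup G) →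
      y ∈ (stabilizer G a ⊓ stabilizer G b : Subgroup G) → f (x * y) = f x * f y)
    (hinv : ∀ r z : G, r • a = a → r • b = b → z • a = b → z • b = a → f (z * r * z⁻¹) = f r) :
    ∀ r : G, r • a = a → r • b = b → f r = 1 := by
  classical
  haveI := Fintype.ofFinite G
  have hodd' := hodd
  set E : Subgroup G := stabilizer G a ⊓ stabilizer G b with hE
  have hfinv : ∀ x : G, x ∈ E → f x⁻¹ * f x = 1 := by
    intro x hx
    rw [← hfmul _ _ (E.inv_mem hx) hx, inv_mul_cancel, hf1]
  let K : Subgroup E :=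
    { carrier := {r | f (r : G) = 1}
      mul_mem' := by
        intro x y hx hy
        simp only [Set.mem_ofPred_eq] at hx hy ⊢
        rw [Subgroup.coe_mul, hfmul _ _ x.2 y.2, hx, hy, one_mul]
      one_mem' := by simpa using hf1
      inv_mem' := by
        intro x hx
        simp only [Set.mem_ofPred_eq] at hx ⊢
        have := hfinv x x.2
        rw [hx, mul_one] at this
        simpa using this }
  have hK : K = ⊤ := by
    apply top_of_sylow_le
    intro p hp S
    haveI := Fact.mk hp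
    by_cases hS : (S : Subgroup E) = ⊥
    · rw [hS]; exact bot_le
    have hRi := not_dvd_index_sylow hZ hab hodd' E hE S hS
    set R : Subgroup G := (S : Subgroup E).map E.subtype with hR
    have hRE : R ≤ E := Subgroup.map_subtype_le _
    have hRp : IsPGroup p R := S.isPGroup'.map E.subtype
    set D : Subgroup G := R ⊓ K.map E.subtype with hD
    have hfoc : ∀ r ∈ R, ∀ z : G, z * r * z⁻¹ ∈ R → r⁻¹ * (z * r * z⁻¹) ∈ D := by
      intro r hr z hz
      have hrE := hRE hr
      have hyE := hRE hz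
      have hfy : f (z * r * z⁻¹) = f r := by
        by_cases hr1 : r = 1
        · subst hr1; simp
        rcases pair_of_conj hZ hab hrE.1 hrE.2 hr1 hyE.1 hyE.2 with ⟨h1, h2⟩ | ⟨h1, h2⟩
        · have hzE : z ∈ E := ⟨h1, h2⟩
          have h3 := hfmul z r hzE hrE
          have h4 := hfmul (z * r) z⁻¹ (E.mul_mem hzE hrE) (E.inv_mem hzE)
          rw [h4, h3, mul_comm (f z), mul_assoc]
          have h5 := hfinv z hzE
          rw [mul_comm (f z) (f z⁻¹), h5, mul_one]
        · exact hinv r z hrE.1 hrE.2 h1 h2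
      refine ⟨R.mul_mem (R.inv_mem hr) hz, ?_⟩
      refine ⟨⟨r⁻¹ * (z * r * z⁻¹), E.mul_mem (E.inv_mem hrE) hyE⟩, ?_, rfl⟩
      show f (r⁻¹ * (z * r * z⁻¹)) = 1
      rw [hfmul _ _ (E.inv_mem hrE) hyE, hfy]
      exact hfinv r hrE
    have hfinal := H09.focal_type (p := p) R D hRp hRi inf_le_left hfoc
    rw [zass_commutator_top hZ hab, inf_top_eq] at hfinal
    intro x hx
    have h1 : (x : G) ∈ R := Subgroup.mem_map_of_mem _ hx
    obtain ⟨y, hy, hyx⟩ := (hfinal h1).2
    have : y = x := Subtype.ext hyx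
    rw [← this]
    exact hy
  intro r hra hrb
  have : (⟨r, hra, hrb⟩ : E) ∈ K := by rw [hK]; exact Subgroup.mem_top _
  exact this

theorem inv_mod_commutator (hZ : IsZassenhausGroup G Ω) [IsSimpleGroup G] {a b : Ω} (hab : a ≠ b)
    (hodd : Odd (Nat.card ↥(stabilizer G a ⊓ stabilizer G b : Subgroup G)))
    {t : G} (ht : orderOf t = 2) (hta : t • a = b) (htb : t • b = a)
    (E : Subgroup G) (hE : E = stabilizer G a ⊓ stabilizer G b)
    (τ : ↥E →* ↥E) (hτ : ∀ r : ↥E, (τ r : G) = t * r * t⁻¹) (y : ↥E) :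
    y * τ y ∈ commutator ↥E := by
  classical
  have hmem : ∀ x : G, x ∈ E ↔ x • a = a ∧ x • b = b := by
    intro x
    rw [hE]
    exact Iff.rfl
  by_contra hcon
  have hne : (Abelianization.of (y * τ y) : Abelianization ↥E) ≠ 1 := by
    intro h
    exact hcon ((QuotientGroup.eq_one_iff _).mp h)
  obtain ⟨χ, hχ⟩ := CommGroup.exists_apply_ne_one_of_hasEnoughRootsOfUnity (Abelianization ↥E) ℂ hne
  let lam : ↥E →* ℂˣ := χ.comp Abelianization.of
  have hlamconj : ∀ x r : ↥E, lam (x * r * x⁻¹) = lam r := by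
    intro x r
    rw [map_mul, map_mul, map_inv, mul_comm (lam x), mul_assoc, mul_inv_cancel, mul_one]
  have ht2 : t * t = 1 := by rw [← sq, ← ht]; exact pow_orderOf_eq_one t
  have hti := inv_eq_self_of_two ht
  have hττ : ∀ r : ↥E, τ (τ r) = r := by
    intro r
    apply Subtype.ext
    rw [hτ, hτ, hti]
    calc t * (t * r * t) * t = (t * t) * r * (t * t) := by group
      _ = r := by rw [ht2]; group
  let f : G → ℂ := fun g => if h : g ∈ E then ((lam ⟨g, h⟩ : ℂˣ) : ℂ) * ((lam (τ ⟨g, h⟩) : ℂˣ) : ℂ) else 0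
  have hfE : ∀ r : ↥E, f r = ((lam r : ℂˣ) : ℂ) * ((lam (τ r) : ℂˣ) : ℂ) := by
    intro r
    simp [f, r.2]
  have hmain := zass_crux_E hZ hab hodd f (by
      have := hfE 1
      simpa using this) (by
      intro x v hx hv
      have hx' : x ∈ E := (hmem x).mpr ⟨hx.1, hx.2⟩
      have hv' : v ∈ E := (hmem v).mpr ⟨hv.1, hv.2⟩
      have h1 := hfE ⟨x, hx'⟩
      have h2 := hfE ⟨v, hv'⟩
      have h3 := hfE (⟨x, hx'⟩ * ⟨v, hv'⟩)
      simp only [Subgroup.coe_mul] at h1 h2 h3
      rw [h1, h2, h3, map_mul, map_mul, map_mul]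
      push_cast
      ring) (by
      intro r z hra hrb hza hzb
      have hrE : r ∈ E := (hmem r).mpr ⟨hra, hrb⟩
      have hti' : t⁻¹ • a = b := by rw [inv_smul_eq_iff, htb]
      have hti'' : t⁻¹ • b = a := by rw [inv_smul_eq_iff, hta]
      have huE : z * t⁻¹ ∈ E := by
        rw [hmem]
        constructor
        · rw [mul_smul, hti', hzb]
        · rw [mul_smul, hti'', hza]
      set u : ↥E := ⟨z * t⁻¹, huE⟩ with hu
      set r' : ↥E := ⟨r, hrE⟩ with hr'
      have heq : z * r * z⁻¹ = ((u * τ r' * u⁻¹ : ↥E) : G) := by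
        simp only [Subgroup.coe_mul, InvMemClass.coe_inv, hτ, hu, hr']
        group
      have h5 : τ (u * τ r' * u⁻¹) = τ u * r' * (τ u)⁻¹ := by
        rw [map_mul, map_mul, map_inv, hττ]
      rw [heq, hfE, hfE r', h5, hlamconj, hlamconj]
      ring)
  apply hχ
  have hy' := (hmem y).mp y.2
  have h1 := hmain y hy'.1 hy'.2
  rw [hfE] at h1
  have h2 : (χ (Abelianization.of (y * τ y)) : ℂ) = 1 := by
    have : (χ (Abelianization.of (y * τ y))) = lam y * lam (τ y) := by
      rw [map_mul, map_mul]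
      rfl
    rw [this]
    push_cast
    exact h1
  exact Units.ext (by simpa using h2)

/-- The conjugation endomorphism of a subgroup normalized by `z`. -/
def conjE (E : Subgroup G) (z : G) (hz : ∀ r ∈ E, z * r * z⁻¹ ∈ E) : ↥E →* ↥E where
  toFun r := ⟨z * r * z⁻¹, hz r r.2⟩
  map_one' := by ext; simp
  map_mul' x y := Subtype.ext (by
    show z * ((x : G) * (y : G)) * z⁻¹ = (z * (x : G) * z⁻¹) * (z * (y : G) * z⁻¹)
    group)

theorem cent_trivial (hZ : IsZassenhausGroup G Ω) [IsSimpleGroup G] {a b : Ω} (hab : a ≠ b)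
    (hodd : Odd (Nat.card ↥(stabilizer G a ⊓ stabilizer G b : Subgroup G)))
    {t : G} (ht : orderOf t = 2) (hta : t • a = b) (htb : t • b = a)
    {y : G} (hya : y • a = a) (hyb : y • b = b) (hyt : y * t = t * y) : y = 1 := by
  classical
  haveI := Fintype.ofFinite G
  by_contra hy1
  have hodd' := hodd
  obtain ⟨E, hE⟩ : ∃ E : Subgroup G, E = stabilizer G a ⊓ stabilizer G b := ⟨_, rfl⟩
  have hmem : ∀ x : G, x ∈ E ↔ x • a = a ∧ x • b = b := by
    intro x
    rw [hE]
    exact Iff.rfl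
  rw [← hE] at hodd
  have ht2 : t * t = 1 := by rw [← sq, ← ht]; exact pow_orderOf_eq_one t
  have hti := inv_eq_self_of_two ht
  obtain ⟨H, hHa, hHcard, hHfix⟩ := exists_kernel hZ hab
  have hN3 : 3 ≤ Fintype.card Ω := by
    obtain ⟨c, hca, hcb⟩ := zass_exists_third hZ a b hab
    have : 2 < Fintype.card Ω := Fintype.two_lt_card_iff.mpr ⟨a, b, c, hab, Ne.symm hca, Ne.symm hcb⟩
    omega
  have hK : H ≠ ⊥ := by
    rintro rfl
    have : Nat.card (⊥ : Subgroup G) = 1 := by simp
    omega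
  have hEK : E ≤ Subgroup.normalizer (H : Set G) := by
    intro x hx
    rw [Subgroup.mem_normalizer_iff]
    intro u
    have hxa := ((hmem x).mp hx).1
    constructor
    · intro hu
      exact zass_kernel_normal hZ a H hHa hHcard hHfix x hxa u hu
    · intro hv
      have hg2 : x⁻¹ • a = a := by rw [inv_smul_eq_iff, hxa]
      have := zass_kernel_normal hZ a H hHa hHcard hHfix x⁻¹ hg2 _ hv
      have h3 : x⁻¹ * (x * u * x⁻¹) * x⁻¹⁻¹ = u := by group
      rwa [h3] at this
  have hfpf : ∀ x ∈ E, x ≠ 1 → H ⊓ Subgroup.centralizer {x} = ⊥ := by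
    intro x hx hx1
    rw [eq_bot_iff]
    intro v hv
    rw [Subgroup.mem_bot]
    obtain ⟨hvH, hvc⟩ := Subgroup.mem_inf.mp hv
    by_contra hv1
    have hxa := ((hmem x).mp hx).1
    have hxb := ((hmem x).mp hx).2
    have hcomm : x * v = v * x := Subgroup.mem_centralizer_iff.mp hvc x (by simp)
    have hvb : x • (v • b) = v • b := by
      rw [← mul_smul, hcomm, mul_smul, hxb]
    have hva : v • a = a := hHa hvH
    have h1 : v • b ≠ a := by
      intro h
      apply hab.symm
      apply MulAction.injective v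
      show v • b = v • a
      rw [h, hva]
    have h2 : v • b ≠ b := by
      intro h
      exact hab.symm (hHfix v hvH hv1 b h)
    exact hx1 (zass_no_three hZ x hab (Ne.symm h2) (Ne.symm h1) hxa hxb hvb)
  have h2E : ¬ 2 ∣ Nat.card E := fun h => (Nat.not_even_iff_odd.mpr hodd) (even_iff_two_dvd.mpr h)
  haveI hZG : IsZGroup ↥E := H06.fpf_isZGroup H E hEK hK hfpf h2E
  haveI hcyc : IsCyclic (commutator ↥E) := IsZGroup.isCyclic_commutator ↥E
  have hcop := IsZGroup.coprime_commutator_index ↥E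
  obtain ⟨D, hD⟩ : ∃ D : Subgroup ↥E, D = commutator ↥E := ⟨_, rfl⟩
  rw [← hD] at hcop
  haveI hDcyc : IsCyclic D := by rw [hD]; exact hcyc
  set DG : Subgroup G := D.map E.subtype with hDG
  have hDGE : DG ≤ E := Subgroup.map_subtype_le _
  haveI hDGcyc : IsCyclic DG := by
    let f : D →* DG := { toFun := fun d => ⟨d.1.1, Subgroup.mem_map_of_mem _ d.2⟩
                         map_one' := rfl
                         map_mul' := fun _ _ => rfl }
    apply isCyclic_of_surjective f
    rintro ⟨x, d, hd, rfl⟩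
    exact ⟨⟨d, hd⟩, rfl⟩
  have hDGcomm : ∀ x ∈ DG, ∀ v ∈ DG, x * v = v * x := by
    intro x hx v hv
    have h1 := mul_comm' (⟨x, hx⟩ : DG) ⟨v, hv⟩
    exact congrArg Subtype.val h1
  have hconjD : ∀ z : G, ∀ hz : (∀ r ∈ E, z * r * z⁻¹ ∈ E), ∀ x ∈ DG, z * x * z⁻¹ ∈ DG := by
    intro z hz x hx
    obtain ⟨d, hd, rfl⟩ := hx
    have h1 : D.map (conjE E z hz) ≤ D := by
      rw [hD, commutator_def, Subgroup.map_commutator]
      exact Subgroup.commutator_mono le_top le_top
    exact ⟨conjE E z hz d, h1 (Subgroup.mem_map_of_mem _ hd), rfl⟩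
  have htE : ∀ r ∈ E, t * r * t⁻¹ ∈ E := by
    intro r hr
    have hr' := (hmem r).mp hr
    rw [hmem, hti]
    constructor
    · rw [mul_smul, mul_smul, hta, hr'.2, htb]
    · rw [mul_smul, mul_smul, htb, hr'.1, hta]
  have hI : ∀ v ∈ E, v * (t * v * t⁻¹) ∈ DG := by
    intro v hv
    have h1 := inv_mod_commutator hZ hab hodd' ht hta htb E hE (conjE E t htE) (fun r => rfl) ⟨v, hv⟩
    rw [← hD] at h1
    exact ⟨_, h1, rfl⟩
  -- the prime and the element `w`
  have hoy : orderOf y ≠ 1 := fun h => hy1 (orderOf_eq_one_iff.mp h)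
  obtain ⟨p, hp, hpy⟩ := Nat.exists_prime_and_dvd hoy
  haveI hpF : Fact p.Prime := ⟨hp⟩
  have hy0 : orderOf y ≠ 0 := (isOfFinOrder_of_finite y).orderOf_pos.ne'
  set w := y ^ (orderOf y / p) with hw
  have hwo : orderOf w = p := orderOf_pow_orderOf_div hy0 hpy
  have hw1 : w ≠ 1 := by
    intro h
    rw [h, orderOf_one] at hwo
    exact hp.one_lt.ne hwo
  have hyE : y ∈ E := (hmem y).mpr ⟨hya, hyb⟩
  have hwE : w ∈ E := E.pow_mem hyE _
  have hwt : t * w * t⁻¹ = w := by
    have h1 : Commute y t := hyt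
    have h2 : Commute w t := h1.pow_left _
    rw [h2.symm.eq, mul_assoc, mul_inv_cancel, mul_one]
  have hpE : p ∣ Nat.card E := by
    rw [← hwo]
    exact Subgroup.orderOf_dvd_natCard E hwE
  have hp2 : p ≠ 2 := by
    rintro rfl
    exact h2E hpE
  have hpodd : Odd p := hp.odd_of_ne_two hp2
  -- odd order elements are powers of their squares
  have hsq : ∀ (x : G) (K : Subgroup G), Odd (orderOf x) → x ^ 2 ∈ K → x ∈ K := by
    intro x K hx h
    obtain ⟨k, hk⟩ := hx
    have h1 : x = (x ^ 2) ^ (k + 1) := by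
      rw [← pow_mul]
      have h2 : 2 * (k + 1) = orderOf x + 1 := by omega
      rw [h2, pow_succ, pow_orderOf_eq_one, one_mul]
    rw [h1]
    exact K.pow_mem h _
  have hwD : w ∈ DG := by
    apply hsq w DG (by rw [hwo]; exact hpodd)
    have := hI w hwE
    rw [hwt] at this
    rwa [sq]
  -- the subgroup `P`
  let P : Subgroup G :=
    { carrier := {x | x ∈ DG ∧ ∃ k : ℕ, x ^ (p ^ k) = 1}
      mul_mem' := by
        rintro x v ⟨hx, k, hk⟩ ⟨hv, l, hl⟩
        refine ⟨DG.mul_mem hx hv, k + l, ?_⟩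
        have hc : Commute x v := hDGcomm x hx v hv
        rw [hc.mul_pow, pow_add, pow_mul, hk, one_pow, one_mul, mul_comm (p ^ k), pow_mul, hl, one_pow]
      one_mem' := ⟨DG.one_mem, 0, by simp⟩
      inv_mem' := by
        rintro x ⟨hx, k, hk⟩
        exact ⟨DG.inv_mem hx, k, by rw [inv_pow, hk, inv_one]⟩ }
  have hPmem : ∀ x : G, x ∈ P ↔ x ∈ DG ∧ ∃ k : ℕ, x ^ (p ^ k) = 1 := fun x => Iff.rfl
  have hPDG : P ≤ DG := fun x hx => hx.1
  have hPE : P ≤ E := hPDG.trans hDGE
  have hPp : IsPGroup p P := by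
    rintro ⟨x, hx⟩
    obtain ⟨k, hk⟩ := hx.2
    exact ⟨k, Subtype.ext hk⟩
  have hwP : w ∈ P := ⟨hwD, 1, by rw [pow_one, ← hwo]; exact pow_orderOf_eq_one w⟩
  -- `P` is a Sylow subgroup of `G`
  have hpD : p ∣ Nat.card D := by
    obtain ⟨d, hd, hdw⟩ := hwD
    have h1 : orderOf d = p := by
      rw [← hwo, ← hdw]
      exact (Subgroup.orderOf_coe d).symm
    have h2 : orderOf (⟨d, hd⟩ : D) = p := by
      rw [Subgroup.orderOf_mk]; exact h1
    rw [← h2]
    exact orderOf_dvd_natCard _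
  have hpDi : ¬ p ∣ D.index := by
    intro h
    have h1 : p ∣ Nat.gcd (Nat.card D) D.index := Nat.dvd_gcd hpD h
    rw [hcop] at h1
    exact hp.one_lt.ne' (Nat.dvd_one.mp h1)
  haveI hDn : D.Normal := by rw [hD]; infer_instance
  have hPi : ¬ p ∣ P.index := by
    let T : Sylow p ↥E := default
    have hTne : (T : Subgroup ↥E) ≠ ⊥ := T.ne_bot_of_dvd_card hpE
    have hT := not_dvd_index_sylow hZ hab hodd' E hE T hTne
    have hTP : (T : Subgroup ↥E).map E.subtype ≤ P := by
      rintro _ ⟨x, hx, rfl⟩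
      obtain ⟨k, hk⟩ := T.isPGroup' ⟨x, hx⟩
      have hk' : x ^ (p ^ k) = 1 := congrArg Subtype.val hk
      refine ⟨?_, k, congrArg Subtype.val hk'⟩
      refine Subgroup.mem_map_of_mem _ ?_
      have h1 : orderOf (QuotientGroup.mk x : ↥E ⧸ D) ∣ p ^ k := by
        apply orderOf_dvd_of_pow_eq_one
        rw [← QuotientGroup.mk_pow, hk']
        rfl
      have h2 : orderOf (QuotientGroup.mk x : ↥E ⧸ D) ∣ D.index := orderOf_dvd_natCard _
      have h3 : Nat.Coprime (p ^ k) D.index :=
        Nat.Coprime.pow_left _ ((Nat.Prime.coprime_iff_not_dvd hp).mpr hpDi)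
      have h4 : orderOf (QuotientGroup.mk x : ↥E ⧸ D) = 1 := Nat.Coprime.eq_one_of_dvd
        (Nat.Coprime.coprime_dvd_left h1 h3) h2
      rw [orderOf_eq_one_iff] at h4
      exact (QuotientGroup.eq_one_iff x).mp h4
    exact fun h => hT (h.trans (Subgroup.index_dvd_of_le hTP))
  have hPconj : ∀ z : G, (∀ r ∈ E, z * r * z⁻¹ ∈ E) → ∀ x ∈ P, z * x * z⁻¹ ∈ P := by
    rintro z hz x ⟨hx, k, hk⟩
    refine ⟨hconjD z hz x hx, k, ?_⟩
    rw [conj_pow, hk]
    simp
  have hPt : ∀ x ∈ P, t * x = x * t := by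
    intro x hx
    set x' := t * x * t⁻¹ with hx'
    have hx'P : x' ∈ P := hPconj t htE x hx
    set d := x * x'⁻¹ with hd
    have hdP : d ∈ P := P.mul_mem hx (P.inv_mem hx'P)
    have htd : t * d * t⁻¹ = d⁻¹ := by
      have hx'i : x'⁻¹ = t * x⁻¹ * t⁻¹ := by rw [hx']; group
      calc t * d * t⁻¹ = t * x * (t * x⁻¹ * t⁻¹) * t⁻¹ := by rw [hd, hx'i, mul_assoc t x]
        _ = t * x * t * x⁻¹ * (t⁻¹ * t⁻¹) := by group
        _ = t * x * t * x⁻¹ := by rw [hti, ht2, mul_one]
        _ = d⁻¹ := by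
          rw [hd, mul_inv_rev, inv_inv, hx', hti]
    by_cases hd1 : d = 1
    · have h1 : x = x' := by
        rw [hd, mul_inv_eq_one] at hd1
        exact hd1
      rw [hx'] at h1
      have h2 : x * t = t * x := by
        nth_rewrite 1 [h1]
        simp
      exact h2.symm
    exfalso
    obtain ⟨k, hk⟩ := hdP.2
    have hdo : orderOf d ∣ p ^ k := orderOf_dvd_of_pow_eq_one hk
    have hpd : p ∣ orderOf d := by
      obtain ⟨j, _, hj⟩ := (Nat.dvd_prime_pow hp).mp hdo
      have hj0 : j ≠ 0 := by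
        rintro rfl
        rw [pow_zero, orderOf_eq_one_iff] at hj
        exact hd1 hj
      rw [hj]
      exact dvd_pow_self p hj0
    have hd0 : orderOf d ≠ 0 := (isOfFinOrder_of_finite d).orderOf_pos.ne'
    set v := d ^ (orderOf d / p) with hv
    have hvo : orderOf v = p := orderOf_pow_orderOf_div hd0 hpd
    have hvD : v ∈ DG := DG.pow_mem (hPDG hdP) _
    have h1 : (⟨v, hvD⟩ : DG) ∈ Subgroup.zpowers (⟨w, hwD⟩ : DG) := by
      apply mem_zpowers_of_order_prime hp
      · rw [Subgroup.orderOf_mk]; exact hwo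
      · rw [Subgroup.orderOf_mk]; exact hvo
    obtain ⟨i, hi⟩ := Subgroup.mem_zpowers_iff.mp h1
    have hi' : w ^ i = v := congrArg Subtype.val hi
    have h2 : t * v * t⁻¹ = v := by
      rw [← hi', ← MulAut.conj_apply, map_zpow, MulAut.conj_apply, hwt]
    have h3 : t * v * t⁻¹ = v⁻¹ := by
      rw [hv, ← conj_pow, htd, inv_pow]
    have h4 : v * v = 1 := by
      rw [h3] at h2
      nth_rewrite 1 [← h2]
      simp
    have h5 : orderOf v ∣ 2 := orderOf_dvd_of_pow_eq_one (by rw [sq]; exact h4)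
    rw [hvo] at h5
    exact hp2 ((Nat.prime_dvd_prime_iff_eq hp Nat.prime_two).mp h5)
  have hPEc : ∀ v ∈ E, ∀ x ∈ P, v * x = x * v := by
    intro v hv x hx
    have hvconj : ∀ r ∈ E, v * r * v⁻¹ ∈ E := fun r hr => E.mul_mem (E.mul_mem hv hr) (E.inv_mem hv)
    set x1 := v * x * v⁻¹ with hx1
    have hx1P : x1 ∈ P := hPconj v hvconj x hx
    have h1 := hI v hv
    have h2 := hDGcomm _ h1 x (hPDG hx)
    have h3 : (t * v * t⁻¹) * x = x1 * (t * v * t⁻¹) := by
      have h4 := hPt x hx
      have h5 := hPt x1 hx1P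
      have h6 : t⁻¹ * x = x * t⁻¹ := by
        rw [hti]; exact h4
      calc (t * v * t⁻¹) * x = t * v * (t⁻¹ * x) := by group
        _ = t * v * (x * t⁻¹) := by rw [h6]
        _ = t * (v * x * v⁻¹) * v * t⁻¹ := by group
        _ = (t * x1) * v * t⁻¹ := by rw [hx1]
        _ = (x1 * t) * v * t⁻¹ := by rw [h5]
        _ = _ := by group
    have h7 : v * x1 = x * v := by
      -- from `h2`
      have h8 : v * (t * v * t⁻¹) * x = v * x1 * (t * v * t⁻¹) := by
        rw [mul_assoc, h3, ← mul_assoc]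
      rw [h2, ← mul_assoc] at h8
      exact (mul_right_cancel h8).symm
    have h9 : Commute (v ^ 2) x := by
      show v ^ 2 * x = x * v ^ 2
      rw [sq]
      calc v * v * x = v * (v * x * v⁻¹) * v := by group
        _ = v * x1 * v := by rw [hx1]
        _ = x * v * v := by rw [h7]
        _ = _ := by group
    have hvodd : Odd (orderOf v) := by
      have hv' := (hmem v).mp hv
      exact odd_orderOf_of_fix hZ hab hodd' hab hv'.1 hv'.2
    have h10 : v ∈ Subgroup.centralizer ({x} : Set G) := by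
      apply hsq v _ hvodd
      rw [Subgroup.mem_centralizer_iff]
      rintro _ rfl
      exact h9.symm.eq
    exact (Subgroup.mem_centralizer_iff.mp h10 x (by simp)).symm
  have hnorm : Subgroup.normalizer (P : Set G) ≤ Subgroup.centralizer (P : Set G) := by
    intro z hz
    rw [Subgroup.mem_centralizer_iff]
    intro x hx
    have hx' : x ∈ P := hx
    have hzw : z * w * z⁻¹ ∈ P := (Subgroup.mem_normalizer_iff.mp hz w).mp hwP
    have hzwE := (hmem _).mp (hPE hzw)
    have hwE' := (hmem _).mp hwE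
    rcases pair_of_conj hZ hab hwE'.1 hwE'.2 hw1 hzwE.1 hzwE.2 with ⟨h1, h2⟩ | ⟨h1, h2⟩
    · exact (hPEc z ((hmem z).mpr ⟨h1, h2⟩) x hx').symm
    · have hu : z * t⁻¹ ∈ E := by
        rw [hmem]
        have hti' : t⁻¹ • a = b := by rw [inv_smul_eq_iff, htb]
        have hti'' : t⁻¹ • b = a := by rw [inv_smul_eq_iff, hta]
        constructor
        · rw [mul_smul, hti', h2]
        · rw [mul_smul, hti'', h1]
      have h3 := hPEc _ hu x hx'
      have h4 := hPt x hx'
      calc x * z = x * (z * t⁻¹) * t := by group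
        _ = (z * t⁻¹) * x * t := by rw [h3]
        _ = (z * t⁻¹) * (x * t) := by group
        _ = (z * t⁻¹) * (t * x) := by rw [h4]
        _ = z * x := by group
  have hcoe := hPp.toSylow_coe hPi
  obtain ⟨R, hRn, hRc⟩ := H19.burnside_complement (hPp.toSylow hPi) (by rw [hcoe]; exact hnorm)
  rw [hcoe] at hRc
  rcases hRn.eq_bot_or_eq_top with h | h
  · rw [h, Subgroup.isComplement'_bot_left] at hRc
    have hc := zass_commutator_top hZ hab
    have hab' : ∀ x v : G, x * v = v * x := by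
      intro x v
      apply hDGcomm
      · exact hPDG (by rw [hRc]; exact Subgroup.mem_top _)
      · exact hPDG (by rw [hRc]; exact Subgroup.mem_top _)
    have h1 : commutator G = ⊥ := by
      rw [commutator_def, Subgroup.commutator_eq_bot_iff_le_centralizer]
      intro x _
      rw [Subgroup.mem_centralizer_iff]
      intro v _
      exact hab' v x
    rw [h1] at hc
    exact bot_ne_top hc
  · rw [h, Subgroup.isComplement'_top_left] at hRc
    rw [hRc, Subgroup.mem_bot] at hwP
    exact hw1 hwP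

end Cfsg.Agent.H04.ZC
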